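import Cfsg.Agent.Lib.ElusF.SpChar2

/-!
# The symplectic criterion for nondegenerate subspaces
-/

set_option autoImplicit false
set_option linter.unusedSectionVars false
set_option linter.style.haveILetI false
set_option linter.unusedVariables false

open Polynomial Module Matrix

universe u

namespace Cfsg.Agent.Lib.ElusF.SpNdThm

open Cfsg Cfsg.Agent.Lib.ElusL.Basic Cfsg.Agent.Lib.ElusL.Flag Cfsg.Agent.Lib.ElusL.Cyc
  Cfsg.Agent.Lib.ElusL.Pos Cfsg.Agent.Lib.ElusL.Dec3 Cfsg.Agent.Lib.ElusF.Form Cfsg.Agent.Lib.ElusF.Step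
  Cfsg.Agent.Lib.ElusF.Split Cfsg.Agent.Lib.ElusF.SpModel Cfsg.Agent.Lib.ElusF.SpNeg
  Cfsg.Agent.Lib.ElusF.SpPos Cfsg.Agent.Lib.ElusF.SpPos2 Cfsg.Agent.Lib.ElusF.SpTwo
  Cfsg.Agent.Lib.ElusF.SpMain Cfsg.Agent.Lib.Classical.SympForm Cfsg.Agent.Lib.ElusF.SpNd
  Cfsg.Agent.Lib.ElusF.Uni Cfsg.Agent.Lib.ElusF.Decomp Cfsg.Agent.Lib.ElusF.SpUni
  Cfsg.Agent.Lib.ElusF.SpUniModel Cfsg.Agent.Lib.ElusF.SpChar2 Cfsg.Agent.Lib.ElusF.SpThm

variable {F : Type u} [Field F] [Fintype F] {d : ℕ}

theorem nd_std_iff (W : Submodule F (Fin d ⊕ Fin d → F)) :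
    (∀ u ∈ W, u ≠ 0 → ∃ v ∈ W, Cfsg.sympForm d F u v ≠ 0) ↔
      Nd (fun u v : Fin d ⊕ Fin d → F => Cfsg.sympForm d F u v) W := by
  constructor
  · intro h u hu huv
    by_contra hne
    obtain ⟨v, hv, hv0⟩ := h u hu hne
    exact hv0 (huv v hv)
  · intro h u hu hne
    by_contra hcon
    push Not at hcon
    exact hne (h u hu hcon)

/-- A model without invariant nondegenerate `m`-spaces contradicts the left-hand side. -/
theorem false_of_model_nd {V : Type*} [AddCommGroup V] [Module F V] [FiniteDimensional F V]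
    {B : LinearMap.BilinForm F V} {T : End F V} {r m : ℕ} (h : Rz B T r) (hdim : finrank F V = 2 * d)
    (hNS : ∀ z : F, T ≠ z • 1)
    (hno : ∀ W : Submodule F V, Nd (fun u v => B u v) W → Inv T W → finrank F W ≠ m)
    (hL : ∀ x : ↥(Matrix.symplecticGroup (Fin d) F),
      (∃ z : F, ((x ^ r : ↥(Matrix.symplecticGroup (Fin d) F)) : Matrix (Fin d ⊕ Fin d) (Fin d ⊕ Fin d) F) = z • (1 : Matrix (Fin d ⊕ Fin d) (Fin d ⊕ Fin d) F)) →
      (∀ z : F, (x : Matrix (Fin d ⊕ Fin d) (Fin d ⊕ Fin d) F) ≠ z • (1 : Matrix (Fin d ⊕ Fin d) (Fin d ⊕ Fin d) F)) →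
      ∃ W : Submodule F (Fin d ⊕ Fin d → F), Module.finrank F ↥W = m ∧ (∀ u ∈ W, u ≠ 0 → ∃ v ∈ W, Cfsg.sympForm d F u v ≠ 0) ∧
        W.map (Matrix.toLin' (x : Matrix (Fin d ⊕ Fin d) (Fin d ⊕ Fin d) F)) ≤ W) : False := by
  obtain ⟨e, x, he, hx, hpow⟩ := exists_conj (d := d) h hdim
  obtain ⟨W', hW'm, hW'N, hW'map⟩ := hL x ⟨1, hpow⟩ (by
    intro z hz
    apply hNS z
    apply LinearMap.ext
    intro v
    obtain ⟨w, rfl⟩ := e.surjective v
    rw [← hx, hz, Matrix.smul_mulVec, Matrix.one_mulVec, map_smul]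
    rfl)
  apply hno (W'.map e.toLinearMap)
  · rintro _ ⟨u, hu, rfl⟩ hh
    have h1 : u = 0 := (nd_std_iff W').mp hW'N u hu (fun v hv => by
      have := hh (e v) ⟨v, hv, rfl⟩
      change B (e u) (e v) = 0 at this
      rw [he] at this
      exact this)
    rw [h1]
    simp
  · rintro _ ⟨u, hu, rfl⟩
    refine ⟨(x : Matrix (Fin d ⊕ Fin d) (Fin d ⊕ Fin d) F) *ᵥ u, hW'map ?_, hx u⟩
    exact ⟨u, hu, rfl⟩
  · rw [LinearEquiv.finrank_map_eq, hW'm]

/-- Bound on invariant nondegenerate subspaces. -/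
theorem bound_nd {q r : ℕ} {V : Type*} [AddCommGroup V] [Module F V] [FiniteDimensional F V]
    {B : V → V → F} {T : End F V} (hrF : (r : F) ≠ 0) (hTr : T ^ r = 1) {c : ℕ} {W : Submodule F V}
    (hInv : Inv T W)
    (hc : c ∣ finrank F (W ⊓ LinearMap.ker (Polynomial.aeval T (Phi F r)) : Submodule F V)) :
    finrank F W % c ≤ Dk T (X - 1 : F[X]) := by
  have h1 := split01 hrF hTr hInv
  rw [h1.2]
  unfold Dk
  obtain ⟨e, he⟩ := hc
  rw [he, Nat.add_mul_mod_self_left]
  have h2 := Nat.mod_le (finrank F (W ⊓ LinearMap.ker (Polynomial.aeval T (X - 1 : F[X])) : Submodule F V)) c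
  have h3 : finrank F (W ⊓ LinearMap.ker (Polynomial.aeval T (X - 1 : F[X])) : Submodule F V) ≤
      finrank F (LinearMap.ker (Polynomial.aeval T (X - 1 : F[X]))) :=
    Submodule.finrank_mono inf_le_right
  omega

/-- The model in characteristic two. -/
theorem exists_four (hchar : (2 : F) = 0) {e : ℕ} (he : 0 < e) :
    ∃ (V : Type u) (_ : AddCommGroup V) (_ : Module F V) (_ : FiniteDimensional F V)
      (B : LinearMap.BilinForm F V) (T N : End F V), Rz B T 2 ∧ finrank F V = 4 * e ∧ T = 1 + N ∧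
      (∀ v, N (N v) = 0) ∧ (∀ u, B u (N u) = 0) ∧ (∀ v, N v = 0 → ∃ x, N x = v) ∧
      ∀ z : F, T ≠ z • 1 := by
  let P := Fin e ⊕ Fin e → F
  let ω := sympBilin e F
  have hneg : ∀ x z : P, ω z x = - ω x z := fun x z => (sympBilin_isAlt.neg_eq x z).symm
  let B : LinearMap.BilinForm F (P × P) :=
    LinearMap.mk₂ F (fun x z => ω x.1 z.2 + ω x.2 z.1)
      (fun a b c => by simp; ring)
      (fun c a b => by simp; ring)
      (fun a b c => by simp; ring)
      (fun c a b => by simp; ring)
  have hB : ∀ x z, B x z = ω x.1 z.2 + ω x.2 z.1 := fun x z => rfl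
  let N : End F (P × P) := (LinearMap.inr F P P).comp (LinearMap.fst F P P)
  have hNa : ∀ x : P × P, N x = (0, x.1) := fun x => rfl
  have halt : B.IsAlt := by
    intro x
    rw [hB, hneg x.1 x.2]
    ring
  refine ⟨P × P, inferInstance, inferInstance, inferInstance, B, 1 + N, N, ⟨halt, ?_, ?_, ?_⟩, ?_, rfl,
    ?_, ?_, ?_, ?_⟩
  · rw [Cfsg.Agent.Lib.SylowLarge.SpForm.sep_iff halt]
    intro x hx
    apply Prod.ext
    · apply (Cfsg.Agent.Lib.SylowLarge.SpForm.sep_iff sympBilin_isAlt).mp sympBilin_nondegenerate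
      intro z
      have := hx (0, z)
      simpa [hB] using this
    · apply (Cfsg.Agent.Lib.SylowLarge.SpForm.sep_iff sympBilin_isAlt).mp sympBilin_nondegenerate
      intro z
      have := hx (z, 0)
      simpa [hB] using this
  · intro x z
    change B (x + N x) (z + N z) = B x z
    rw [hB, hB, hNa, hNa]
    simp only [Prod.fst_add, Prod.snd_add, map_add, LinearMap.add_apply, add_zero]
    linear_combination (ω x.1 z.1) * hchar
  · apply LinearMap.ext
    intro x
    change (x + N x) + N (x + N x) = x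
    apply Prod.ext
    · simp [hNa]
    · simp only [hNa, Prod.snd_add, Prod.fst_add, add_zero]
      have h2 : (2 : F) • x.1 = 0 := by rw [hchar, zero_smul]
      rw [two_smul] at h2
      rw [add_assoc, h2, add_zero]
  · have h1 : finrank F P = 2 * e := finrank_triv e
    rw [Module.finrank_prod, h1]
    ring
  · intro v
    rfl
  · intro u
    rw [hNa, hB]
    have := sympBilin_isAlt (F := F) (m := e) u.1
    simp only [map_zero]
    change ω u.1 u.1 + 0 = 0
    rw [add_zero]
    exact this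
  · intro v hv
    refine ⟨(v.2, 0), ?_⟩
    have h1 : v.1 = 0 := by
      have := congrArg Prod.snd hv
      exact this
    rw [hNa]
    exact Prod.ext h1.symm rfl
  · intro z hz
    haveI : Nonempty (Fin e) := ⟨⟨0, he⟩⟩
    obtain ⟨a, ha⟩ : ∃ a : P, a ≠ 0 := by
      have : Nontrivial P := by
        have h1 : 0 < finrank F P := by
          have : finrank F P = 2 * e := finrank_triv e
          omega
        exact Module.nontrivial_of_finrank_pos (R := F) h1
      exact exists_ne 0
    have h1 := congrArg (fun S : End F (P × P) => S (a, 0)) hz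
    have h2 : (a, 0) + N (a, 0) = z • ((a, 0) : P × P) := h1
    have h3 := congrArg Prod.snd h2
    simp only [Prod.snd_add, hNa, Prod.smul_snd, smul_zero, zero_add] at h3
    exact ha h3

theorem sum_min_le (μ : Multiset ℕ) (j : ℕ) : (μ.map (fun a => min a j)).sum ≤ μ.sum := by
  induction μ using Multiset.induction_on with
  | empty => simp
  | cons a s ih =>
    simp only [Multiset.map_cons, Multiset.sum_cons]
    have := min_le_left a j
    omega

theorem sum_min_one_lt {μ : Multiset ℕ} (h : ∃ a ∈ μ, 2 ≤ a) :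
    (μ.map (fun a => min a 1)).sum < μ.sum := by
  classical
  obtain ⟨a, ha, ha2⟩ := h
  rw [← Multiset.cons_erase ha]
  simp only [Multiset.map_cons, Multiset.sum_cons]
  have := sum_min_le (μ.erase a) 1
  have h2 : min a 1 = 1 := by omega
  omega

variable {p : ℕ} [Fact p.Prime] [CharP F p]

/-- The negative direction for `r = p > 2`. -/
theorem neg_rp (hd0 : 0 < d) {m : ℕ} (hme : Even m) (hmd : m ≤ 2 * d) (hp2 : p ≠ 2)
    (hL : ∀ x : ↥(Matrix.symplecticGroup (Fin d) F),
      (∃ z : F, ((x ^ p : ↥(Matrix.symplecticGroup (Fin d) F)) : Matrix (Fin d ⊕ Fin d) (Fin d ⊕ Fin d) F) = z • (1 : Matrix (Fin d ⊕ Fin d) (Fin d ⊕ Fin d) F)) →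
      (∀ z : F, (x : Matrix (Fin d ⊕ Fin d) (Fin d ⊕ Fin d) F) ≠ z • (1 : Matrix (Fin d ⊕ Fin d) (Fin d ⊕ Fin d) F)) →
      ∃ W : Submodule F (Fin d ⊕ Fin d → F), Module.finrank F ↥W = m ∧ (∀ u ∈ W, u ≠ 0 → ∃ v ∈ W, Cfsg.sympForm d F u v ≠ 0) ∧
        W.map (Matrix.toLin' (x : Matrix (Fin d ⊕ Fin d) (Fin d ⊕ Fin d) F)) ≤ W)
    (μ : Multiset ℕ) (h0 : ∀ a ∈ μ, 0 < a ∧ a ≤ p) (hodd : ∀ a : ℕ, Odd a → Even (μ.count a))
    (hsum : μ.sum = 2 * d) :
    ∃ ν : Multiset ℕ, ν ≤ μ ∧ ν.sum = m ∧ ∀ a : ℕ, Odd a → Even (ν.count a) := by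
  classical
  by_contra hcon
  push Not at hcon
  have hF2 : (2 : F) ≠ 0 := by
    intro h
    have h1 : ((2 : ℕ) : F) = 0 := by exact_mod_cast h
    rw [CharP.cast_eq_zero_iff F p] at h1
    exact hp2 ((Nat.prime_dvd_prime_iff_eq Fact.out Nat.prime_two).mp h1)
  have hpart : ∃ a ∈ μ, 2 ≤ a := by
    by_contra hall
    push Not at hall
    have h1 : ∀ a ∈ μ, a = 1 := fun a ha => by
      have := (h0 a ha).1
      have := hall a ha
      omega
    have hμ : μ = Multiset.replicate μ.card 1 := Multiset.eq_replicate_card.mpr h1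
    have hcard : μ.card = 2 * d := by
      rw [← hsum]
      conv_rhs => rw [hμ]
      simp
    obtain ⟨a, ha1, ha2⟩ := hcon (Multiset.replicate m 1) (by
      rw [hμ, hcard]
      exact Multiset.replicate_le_replicate _ |>.mpr hmd) (by simp)
    rw [Multiset.count_replicate] at ha2
    split_ifs at ha2
    · exact (Nat.not_even_iff_odd.mpr (Nat.not_even_iff_odd.mp ha2)) hme
    · exact ha2 (by simp)
  obtain ⟨V, i1, i2, i3, B, T, h, hf, hD⟩ := model_uni (F := F) (p := p) hF2 _ μ rfl h0 hodd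
  have hB := Rz.fm h
  have hA : ∀ u, B u u = 0 := h.alt
  -- the nilpotent part
  set N : End F V := T - 1 with hN
  have hTN : T = 1 + N := by
    rw [hN]
    abel
  have hNp : N ^ p = 0 := by
    rw [hN, Cfsg.Agent.Lib.ElusL.Dec5.pow_sub_one (p := p), h.pow, sub_self]
  have hs : T ^ (p - 1 + 1) = 1 := by
    rw [Nat.sub_add_cancel (Fact.out : p.Prime).one_le, h.pow]
  have hinj : Function.Injective T := by
    have h1 : T ^ (p - 1) * T = 1 := by rw [← pow_succ, hs]
    intro a b hab
    have h2 := congrArg (T ^ (p - 1)) hab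
    rw [← Module.End.mul_apply, ← Module.End.mul_apply, h1] at h2
    exact h2
  have hDk : ∀ j, Dk T ((X - 1) ^ j : F[X]) = finrank F (LinearMap.ker (N ^ j)) := by
    intro j
    unfold Dk
    have : Polynomial.aeval T ((X - 1) ^ j : F[X]) = N ^ j := by
      rw [map_pow, map_sub, aeval_X, map_one]
    rw [this]
  refine false_of_model_nd h (by rw [hf, hsum]) ?_ ?_ hL
  · intro z hz
    obtain ⟨a, ha, ha2⟩ := id hpart
    have hpos : 0 < finrank F V := by
      have := (h0 a ha).1
      rw [hf, hsum]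
      omega
    haveI := Module.nontrivial_of_finrank_pos (R := F) hpos
    obtain ⟨v, hv⟩ := exists_ne (0 : V)
    have h1 : z ^ p = 1 := by
      have h2 := h.pow
      rw [hz, _root_.smul_pow, one_pow] at h2
      have h3 := congrArg (fun S : End F V => S v) h2
      simp only [LinearMap.smul_apply, Module.End.one_apply] at h3
      have h4 : (z ^ p - 1) • v = 0 := by
        rw [sub_smul, one_smul, h3, sub_self]
      exact sub_eq_zero.mp ((smul_eq_zero.mp h4).resolve_right hv)
    have h2 : z = 1 := by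
      apply frobenius_inj F p
      rw [frobenius_def, frobenius_def, h1, one_pow]
    have h3 : N = 0 := by
      rw [hN, hz, h2, one_smul, sub_self]
    have h4 := hD 1
    rw [hDk, pow_one, h3, LinearMap.ker_zero, finrank_top, hf] at h4
    have h5 := sum_min_one_lt hpart
    omega
  · intro W hW hWi hWm
    have hWN : Inv N W := inv_N hTN hWi
    set O := hB.orth W with hO
    have hOnd : Nd (fun u v => B u v) O := hB.nd_orth hW
    have hOy : Inv T O := hB.inv_orth h.iso hinj hWi
    have hON : Inv N O := inv_N hTN hOy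
    obtain ⟨ν, h1, h2, h3, h4, -⟩ := decomp_sp hB hA h.iso hTN hs hF2 hNp hW hWN
    obtain ⟨ν', h1', h2', h3', h4', -⟩ := decomp_sp hB hA h.iso hTN hs hF2 hNp hOnd hON
    have hle : ν ≤ μ := by
      apply count_eq_of_profile (ν' := ν') (fun a ha => (h0 a ha).1) _ (fun a ha => (h1 a ha).1)
      intro j
      rw [← hD, hDk, Dd_add (hB.isCompl_orth hW) hWN hON, h4, h4']
    obtain ⟨a, ha1, ha2⟩ := hcon ν hle (by rw [h3, hWm])
    exact ha2 (h2 a ha1)

/-- The prime two, odd characteristic. -/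
theorem pos_two_nd {q : ℕ} {V : Type*} [AddCommGroup V] [Module F V] [FiniteDimensional F V]
    {B : V → V → F} (hB : Fm (RingHom.id F) (-1) B) (hA : ∀ u, B u u = 0) {T : End F V} (hT : Iso B T)
    (hq : Fintype.card F = q) (hF2 : ((2 : ℕ) : F) ≠ 0) (h2q : ¬ 2 ∣ q) {z : F} (hz : z ^ 2 = 1)
    (hTr : T ^ 2 = z • 1) {m : ℕ} (hme : Even m) (hm : m ≤ finrank F V) :
    ∃ W : Submodule F V, Nd B W ∧ Inv T W ∧ finrank F W = m := by
  have hF2' : (2 : F) ≠ 0 := by exact_mod_cast hF2
  have hz' : z = 1 ∨ z = -1 := mul_self_eq_one_iff.mp (by rw [← sq]; exact hz)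
  have hq3 : q % 2 = 1 := by omega
  rcases hz' with rfl | rfl
  · have hq1 : (q : ZMod 2) = 1 := by
      have h1 : q = 2 * (q / 2) + 1 := by omega
      rw [h1]
      push_cast
      have : (2 : ZMod 2) = 0 := rfl
      rw [this, zero_mul, zero_add]
    have hord : orderOf (q : ZMod 2) = 1 := by rw [hq1, orderOf_one]
    have hodd : Odd (orderOf (q : ZMod 2)) := by
      rw [hord]
      exact odd_one
    have hT1 : T ^ 2 = 1 := by rw [hTr, one_smul]
    have hnd1 := nd1 hB hT hF2 hT1 hB.nd_top (U := ⊤) (fun v _ => trivial)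
    rw [top_inf_eq] at hnd1
    obtain ⟨W, h1, h2, h3⟩ := pos_gen hB hA hT hT1 Nat.prime_two hF2 (c := 2) (by norm_num) even_two
      (even_iff_two_dvd.mp (even_of_nd hB hA _ _ rfl hnd1))
      (fun U hU₁ hU hUi hpos => by
        have := step_odd hB hA hT hT1 hq Nat.prime_two hF2 h2q hodd hU₁ hU hUi hpos
        rwa [hord] at this)
      hme hm (by
        have : m % 2 = 0 := Nat.even_iff.mp hme
        omega)
    exact ⟨W, h1, h2, h3⟩
  · have hn1 : (-1 : F) ≠ 0 := neg_ne_zero.mpr one_ne_zero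
    have hinj : Function.Injective T := inj_of_pow hn1 (by norm_num) hTr
    obtain ⟨s, hs⟩ := hme
    obtain ⟨W, -, h2, h3, h4⟩ := ndcap hB hT hinj (d := 2) (by norm_num) (U₀ := ⊤)
      (fun U _ hU hUi hpos => step_minus hB hA hT hF2' hTr hU hUi hpos) s ⊤ le_rfl hB.nd_top
      (fun v _ => trivial) (by rw [finrank_top]; omega)
    exact ⟨W, h2, h3, by omega⟩

theorem main {q : ℕ} (hq : Fintype.card F = q)
    (d m : ℕ) (hd : 2 ≤ d) (hm : 2 ≤ m) (hme : Even m) (hmd : m < d)
    (r : ℕ) [Fact r.Prime]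
    (hrΩ : r ∣ Nat.card {W : Submodule F (Fin d ⊕ Fin d → F) // Module.finrank F ↥W = m ∧ (∀ u ∈ W, u ≠ 0 → ∃ v ∈ W, Cfsg.sympForm d F u v ≠ 0)})
    (i c : ℕ) (hi : i = orderOf (q : ZMod r)) (hc : c = if Even i then i else 2 * i) :
    (∀ x : ↥(Matrix.symplecticGroup (Fin d) F),
      (∃ z : F, ((x ^ r : ↥(Matrix.symplecticGroup (Fin d) F)) : Matrix (Fin d ⊕ Fin d) (Fin d ⊕ Fin d) F) = z • (1 : Matrix (Fin d ⊕ Fin d) (Fin d ⊕ Fin d) F)) →
      (∀ z : F, (x : Matrix (Fin d ⊕ Fin d) (Fin d ⊕ Fin d) F) ≠ z • (1 : Matrix (Fin d ⊕ Fin d) (Fin d ⊕ Fin d) F)) →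
      ∃ W : Submodule F (Fin d ⊕ Fin d → F), Module.finrank F ↥W = m ∧ (∀ u ∈ W, u ≠ 0 → ∃ v ∈ W, Cfsg.sympForm d F u v ≠ 0) ∧
        W.map (Matrix.toLin' (x : Matrix (Fin d ⊕ Fin d) (Fin d ⊕ Fin d) F)) ≤ W) ↔
    ((r = p ∧ 2 < p ∧ (∀ μ : Multiset ℕ, (∀ a ∈ μ, 0 < a ∧ a ≤ p) → (∀ a : ℕ, Odd a → Even (μ.count a)) → μ.sum = 2 * d →
        ∃ ν : Multiset ℕ, ν ≤ μ ∧ ν.sum = m ∧ ∀ a : ℕ, Odd a → Even (ν.count a))) ∨
     (r = p ∧ p = 2 ∧ ((2 * d) % 4 = 2 ∨ m % 4 = 0)) ∨
     (r = 2 ∧ p ≠ 2) ∨
     (r ≠ p ∧ 2 < r ∧ c ≤ m ∧ m % c ≤ (2 * d) % c)) := by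
  have hr : r.Prime := Fact.out
  have hp : p.Prime := Fact.out
  have hq1 : 1 ≤ q := by
    rw [← hq]
    exact Fintype.card_pos
  have hfin : finrank F (Fin d ⊕ Fin d → F) = 2 * d := finrank_triv d
  constructor
  · intro hL
    by_cases hrp : r = p
    · subst hrp
      by_cases hp2 : r = 2
      · right; left
        refine ⟨rfl, hp2, ?_⟩
        by_contra hcon
        push Not at hcon
        subst hp2
        have hchar : (2 : F) = 0 := by
          have := CharP.cast_eq_zero F 2
          exact_mod_cast this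
        obtain ⟨e, he⟩ : ∃ e, d = 2 * e := ⟨d / 2, by omega⟩
        obtain ⟨V, i1, i2, i3, B, T, N, h, hf, hTN, hNN, hAlt, hker, hNS⟩ := exists_four (F := F) hchar
          (e := e) (by omega)
        refine false_of_model_nd h (by rw [hf, he]; ring) hNS ?_ hL
        intro W hW hWi hWm
        have h1 := four_dvd (Rz.fm h) h.alt h.iso hTN hNN hchar hAlt hker hW (inv_N hTN hWi)
        rw [hWm] at h1
        omega
      · left
        have h2 : 2 < r := by
          have := hr.two_le
          omega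
        refine ⟨rfl, h2, ?_⟩
        intro μ h0 hodd hsum
        exact neg_rp (by omega) hme (by omega) hp2 hL μ h0 hodd hsum
    · by_cases hr2 : r = 2
      · right; right; left
        exact ⟨hr2, fun h => hrp (hr2.trans h.symm)⟩
      · right; right; right
        have hr3 : 2 < r := by
          have := hr.two_le
          omega
        refine ⟨hrp, hr3, ?_⟩
        obtain ⟨hrF, hrq⟩ := Cfsg.Agent.Lib.ElusL.Bridge.r_facts hq hr hrp
        have hipos : 0 < i := by
          rw [hi]
          exact ord_pos hr hrq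
        have hcpos : 0 < c := by
          rw [hc]
          split_ifs <;> omega
        -- counting
        obtain ⟨k, hk⟩ : ∃ k, m = 2 * k := by
          obtain ⟨k, hk⟩ := hme
          exact ⟨k, by omega⟩
        haveI : Finite (Fin d ⊕ Fin d → F) := inferInstance
        have hcard : Nat.card (Fin d ⊕ Fin d → F) = q ^ (2 * d) := by
          rw [Module.natCard_eq_pow_finrank (K := F), hfin, Nat.card_eq_fintype_card, hq]
        have hcount := Cfsg.Agent.Lib.ElusF.SpCount.nd_count (k := k) (q := q)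
          (by rw [Nat.card_eq_fintype_card, hq]) (sympBilin_isAlt (m := d) (F := F))
          sympBilin_nondegenerate hcard (by omega)
        have hcardeq : Nat.card {W : Submodule F (Fin d ⊕ Fin d → F) // finrank F W = 2 * k ∧
            ∀ u ∈ W, (∀ v ∈ W, sympBilin d F u v = 0) → u = 0} =
            Nat.card {W : Submodule F (Fin d ⊕ Fin d → F) // Module.finrank F ↥W = m ∧
              (∀ u ∈ W, u ≠ 0 → ∃ v ∈ W, Cfsg.sympForm d F u v ≠ 0)} := by
          apply Nat.card_congr
          apply Equiv.subtypeEquivRight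
          intro W
          rw [nd_std_iff W, ← hk]
          rfl
        rw [hcardeq] at hcount
        have hdvd : r ∣ ∏ j ∈ Finset.range k, ((q ^ (2 * (d - j)) - 1) * q ^ (2 * (d - j) - 1)) := by
          rw [← hcount]
          exact hrΩ.mul_right _
        obtain ⟨j, hj, hjd⟩ := (hr.prime.dvd_finsetProd_iff _).mp hdvd
        have hjk : j < k := Finset.mem_range.mp hj
        have hjd' : r ∣ q ^ (2 * (d - j)) - 1 := by
          rcases (hr.prime.dvd_mul).mp hjd with h | h
          · exact h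
          · exact absurd (hr.dvd_of_dvd_pow h) hrq
        have hidvd : i ∣ 2 * (d - j) := by
          rw [hi]
          exact (ord_dvd_iff hq1 _).mpr hjd'
        have hcdvd : c ∣ 2 * (d - j) := by
          rw [hc]
          split_ifs with hev
          · exact hidvd
          · exact Nat.mul_dvd_mul_left 2
              ((Nat.not_even_iff_odd.mp hev).coprime_two_right.dvd_of_dvd_mul_left hidvd)
        obtain ⟨hc2d, hmodlt⟩ := Cfsg.Agent.Lib.ElusL.Bridge.order_facts hcpos
          (n := 2 * d) (m := m) (l := 2 * (d - j)) (by omega) (by omega) hcdvd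
        by_contra hcon
        have hmod : (2 * d) % c < m % c := by
          by_cases hcm : c ≤ m
          · push Not at hcon
            exact hcon hcm
          · rw [Nat.mod_eq_of_lt (by omega : m < c)]
            exact hmodlt
        by_cases hev : Even i
        · have hci : c = i := by rw [hc, if_pos hev]
          obtain ⟨e, he⟩ : ∃ e, i = 2 * e := by
            obtain ⟨e, he⟩ := hev
            exact ⟨e, by omega⟩
          have hepos : 0 < e := by omega
          have hord : orderOf (q : ZMod r) = 2 * e := by rw [← hi, he]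
          rw [hci] at hc2d hmod
          obtain ⟨V, i1, i2, i3, B, T, hRz, hf, hD, hNS⟩ := exists_alpha_even (d := d) hq hr hr2 hrF hrq
            hord hepos (by rw [← he]; exact hc2d)
          refine false_of_model_nd hRz hf hNS ?_ hL
          intro W hW hWi hWm
          have h1 : finrank F W % i ≤ Dk T (X - 1 : F[X]) :=
            bound_nd (B := fun u v => B u v) (q := q) hrF hRz.pow hWi
              (dvd_finrank_inf (Phi_ne_zero (F := F) hr) (fun g hg hgd => by
                rw [hi]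
                exact natDegree_factor hq hr hrF hrq hg hgd) hWi)
          rw [hD, hWm, ← he] at h1
          omega
        · have hci : c = 2 * i := by rw [hc, if_neg hev]
          rw [hci] at hc2d hmod
          obtain ⟨V, i1, i2, i3, B, T, hRz, hf, hD, hNS⟩ := exists_alpha_odd (d := d) hq hr hr2 hrF hrq
            hi.symm hipos hc2d
          refine false_of_model_nd hRz hf hNS ?_ hL
          intro W hW hWi hWm
          have hodd : Odd (orderOf (q : ZMod r)) := by
            rw [← hi]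
            exact Nat.not_even_iff_odd.mp hev
          have h1 : finrank F W % (2 * i) ≤ Dk T (X - 1 : F[X]) :=
            bound_nd (B := fun u v => B u v) (q := q) hrF hRz.pow hWi (by
              rw [hi]
              exact two_mul_dvd (Rz.fm hRz) hRz.alt hRz.iso hRz.pow hq hr hrF hrq hodd _ _ rfl
                inf_le_right (nd1 (Rz.fm hRz) hRz.iso hrF hRz.pow hW hWi)
                ((Rz.fm hRz).inv_inf hWi (inv_ker T _)))
          rw [hD, hWm] at h1
          omega
  · intro hR x ⟨z, hz⟩ hns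
    have hB := fm_std (F := F) (d := d)
    have hA := alt_std (F := F) (d := d)
    have hT := iso_std x
    have hTr := pow_std hz
    have hz2 : z ^ 2 = 1 := scalar_sq hB hT hTr (by rw [hfin]; omega)
    suffices hW : ∃ W : Submodule F (Fin d ⊕ Fin d → F),
        Nd (fun u v : Fin d ⊕ Fin d → F => sympForm d F u v) W ∧
        Inv (Matrix.toLin' (x : Matrix (Fin d ⊕ Fin d) (Fin d ⊕ Fin d) F)) W ∧ finrank F W = m by
      obtain ⟨W, h1, h2, h3⟩ := hW
      exact ⟨W, h3, (nd_std_iff W).mpr h1, (inv_iff _ W).mpr h2⟩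
    have hz0 := z_ne_zero hz2
    rcases hR with ⟨hrp, hp2, hprop⟩ | ⟨hrp, hp2, hcond⟩ | ⟨hr2, hp2⟩ | ⟨hrp, hr3, -, hmod⟩
    · subst hrp
      have hrodd : Odd r := hr.odd_of_ne_two (by omega)
      have hF2 : (2 : F) ≠ 0 := by
        intro h
        have h1 : ((2 : ℕ) : F) = 0 := by exact_mod_cast h
        rw [CharP.cast_eq_zero_iff F r] at h1
        have := (Nat.prime_dvd_prime_iff_eq hr Nat.prime_two).mp h1
        omega
      have hS := scaled hB hT hz2
      have hSr := scaled_pow hrodd hz2 hTr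
      set y := z • (Matrix.toLin' (x : Matrix (Fin d ⊕ Fin d) (Fin d ⊕ Fin d) F) :
        End F (Fin d ⊕ Fin d → F)) with hy
      set N : End F (Fin d ⊕ Fin d → F) := y - 1 with hN
      have hTN : y = 1 + N := by
        rw [hN]
        abel
      have hNp : N ^ r = 0 := by
        rw [hN, Cfsg.Agent.Lib.ElusL.Dec5.pow_sub_one (p := r), hSr, sub_self]
      have hs : y ^ (r - 1 + 1) = 1 := by
        rw [Nat.sub_add_cancel hr.one_le, hSr]
      obtain ⟨μ, h1, h2, h3, -, h5⟩ := decomp_sp hB hA hS hTN hs hF2 hNp (U := ⊤) hB.nd_top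
        (fun v _ => trivial)
      rw [finrank_top, hfin] at h3
      obtain ⟨ν, h6, h7, h8⟩ := hprop μ h1 h2 h3
      obtain ⟨W, -, h9, h10, h11⟩ := h5 ν h6 h8
      exact ⟨W, h9, (inv_smul_iff hz0).mp (inv_y hTN h10), by rw [h11, h7]⟩
    · subst hrp
      subst hp2
      have hchar : (2 : F) = 0 := by
        have := CharP.cast_eq_zero F 2
        exact_mod_cast this
      have hz1 : z = 1 := by
        have hm1 : (-1 : F) = 1 := by
          have : (-1 : F) = 1 - 2 := by ring
          rw [this, hchar, sub_zero]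
        have hzz : z * z = 1 := by rw [← sq]; exact hz2
        rcases mul_self_eq_one_iff.mp hzz with h | h
        · exact h
        · rw [h, hm1]
      rw [hz1, one_smul] at hTr
      set T : End F (Fin d ⊕ Fin d → F) := Matrix.toLin' (x : Matrix (Fin d ⊕ Fin d) (Fin d ⊕ Fin d) F) with hTdef
      set N : End F (Fin d ⊕ Fin d → F) := T - 1 with hN
      have hTN : T = 1 + N := by
        rw [hN]
        abel
      have hTT : ∀ v, T (T v) = v := by
        intro v
        have := congrArg (fun S : End F (Fin d ⊕ Fin d → F) => S v) hTr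
        simpa [sq] using this
      have hNN : ∀ v, N (N v) = 0 := by
        intro v
        change T (T v - v) - (T v - v) = 0
        rw [map_sub, hTT]
        have h2 : (2 : F) • (v - T v) = 0 := by rw [hchar, zero_smul]
        rw [two_smul] at h2
        rw [← h2]
        abel
      obtain ⟨W, -, h2, h3, h4⟩ := cap24 hB hA hT hTN hNN hchar _ (⊤ : Submodule F (Fin d ⊕ Fin d → F)) rfl
        hB.nd_top (fun v _ => trivial) m hme (by rw [finrank_top, hfin]; omega) (by
          rw [finrank_top, hfin]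
          rcases hcond with h | h
          · exact Or.inr h
          · exact Or.inl h)
      exact ⟨W, h2, inv_y hTN h3, h4⟩
    · subst hr2
      obtain ⟨hrF, hrq⟩ := Cfsg.Agent.Lib.ElusL.Bridge.r_facts hq hr (fun h => hp2 h.symm)
      exact pos_two_nd hB hA hT hq hrF hrq hz2 hTr hme (by rw [hfin]; omega)
    · obtain ⟨hrF, hrq⟩ := Cfsg.Agent.Lib.ElusL.Bridge.r_facts hq hr hrp
      have hrodd : Odd r := hr.odd_of_ne_two (by omega)
      have hS := scaled hB hT hz2
      have hSr := scaled_pow hrodd hz2 hTr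
      have hinv : ∀ W, Inv (z • (Matrix.toLin' (x : Matrix (Fin d ⊕ Fin d) (Fin d ⊕ Fin d) F) :
          End F (Fin d ⊕ Fin d → F))) W → Inv (Matrix.toLin' (x : Matrix (Fin d ⊕ Fin d) (Fin d ⊕ Fin d) F)) W :=
        fun W h => (inv_smul_iff hz0).mp h
      have hnd1 := nd1 hB hS hrF hSr hB.nd_top (U := ⊤) (fun v _ => trivial)
      rw [top_inf_eq] at hnd1
      by_cases hev : Even i
      · have hci : c = i := by rw [hc, if_pos hev]
        rw [hci] at hmod
        obtain ⟨e, he⟩ : ∃ e, i = 2 * e := by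
          obtain ⟨e, he⟩ := hev
          exact ⟨e, by omega⟩
        have hipos : 0 < i := by
          rw [hi]
          exact ord_pos hr hrq
        have hepos : 0 < e := by omega
        have hord : orderOf (q : ZMod r) = 2 * e := by rw [← hi, he]
        have hRz : Rz (sympBilin d F) (z • (Matrix.toLin' (x : Matrix (Fin d ⊕ Fin d) (Fin d ⊕ Fin d) F) :
          End F (Fin d ⊕ Fin d → F))) r := ⟨sympBilin_isAlt, sympBilin_nondegenerate, hS, hSr⟩
        rw [he] at hmod
        obtain ⟨W, h1, h2, h3⟩ := pos_gen hB hA hS hSr hr hrF (c := 2 * e) (by omega) (even_two_mul e) (by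
            have := dvd_finrank_inf (T := z • (Matrix.toLin' (x : Matrix (Fin d ⊕ Fin d) (Fin d ⊕ Fin d) F) :
              End F (Fin d ⊕ Fin d → F))) (W := ⊤) (d := 2 * e) (Phi_ne_zero (F := F) hr)
              (fun g hg hgd => by rw [← hord]; exact natDegree_factor hq hr hrF hrq hg hgd)
              (fun v _ => trivial)
            rwa [top_inf_eq] at this)
          (fun U hU₁ hU hUi hpos => step_even hRz hq hr (by omega) hrF hrq hord hepos hU₁ hU hUi hpos)
          hme (by rw [hfin]; omega) (by rw [hfin]; exact hmod)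
        exact ⟨W, h1, hinv W h2, h3⟩
      · have hci : c = 2 * i := by rw [hc, if_neg hev]
        rw [hci] at hmod
        have hodd : Odd (orderOf (q : ZMod r)) := by
          rw [← hi]
          exact Nat.not_even_iff_odd.mp hev
        subst hi
        obtain ⟨W, h1, h2, h3⟩ := pos_gen hB hA hS hSr hr hrF (c := 2 * orderOf (q : ZMod r))
          (by have := hodd.pos; omega) (even_two_mul _)
          (two_mul_dvd hB hA hS hSr hq hr hrF hrq hodd _ _ rfl le_rfl hnd1 (inv_ker _ _))
          (fun U hU₁ hU hUi hpos => step_odd hB hA hS hSr hq hr hrF hrq hodd hU₁ hU hUi hpos)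
          hme (by rw [hfin]; omega) (by rw [hfin]; exact hmod)
        exact ⟨W, h1, hinv W h2, h3⟩

end Cfsg.Agent.Lib.ElusF.SpNdThm
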