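import Cfsg.Agent.Lib.ElusF.HzTwoB
import Cfsg.Agent.Lib.ElusF.SpNdThm

/-!
# Unipotent elements of the unitary groups
-/

set_option autoImplicit false
set_option linter.unusedSectionVars false
set_option linter.style.haveILetI false
set_option linter.unusedVariables false

open Polynomial Module

universe u

namespace Cfsg.Agent.Lib.ElusF.HzUni

open Cfsg.Agent.Lib.ElusL.Basic Cfsg.Agent.Lib.ElusL.Dec3 Cfsg.Agent.Lib.ElusF.Form
  Cfsg.Agent.Lib.ElusF.Step Cfsg.Agent.Lib.ElusF.Uni Cfsg.Agent.Lib.ElusF.Decomp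
  Cfsg.Agent.Lib.ElusF.SpModel Cfsg.Agent.Lib.SpSpec.FormAlg
  Cfsg.Agent.Lib.HermCount.Field Cfsg.Agent.Lib.ElusF.HzBase
  Cfsg.Agent.Lib.ElusF.HzModel Cfsg.Agent.Lib.ElusF.HzMat Cfsg.Agent.Lib.ElusF.SpUniModel
  Cfsg.Agent.Lib.ElusF.SpNdThm

variable {F : Type u} [Field F] [Fintype F] {q : ℕ}

section Tau

variable (hF : Fintype.card F = q ^ 2) (a : ℕ)

/-- The semilinear involution of the truncated polynomial ring. -/
noncomputable def tauR : AdjoinRoot (X ^ a : F[X]) →+* AdjoinRoot (X ^ a : F[X]) :=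
  AdjoinRoot.lift ((algebraMap F _).comp (frobHom hF)) (AdjoinRoot.root _) (by
    rw [eval₂_pow, eval₂_X]
    exact root_pow_self a)

theorem tauR_mk (f : F[X]) :
    tauR hF a (AdjoinRoot.mk _ f) = AdjoinRoot.mk _ (f.map (frobHom hF)) := by
  unfold tauR
  rw [AdjoinRoot.lift_mk, ← AdjoinRoot.aeval_eq, aeval_def, eval₂_map]

theorem tauR_root : tauR hF a (AdjoinRoot.root _) = AdjoinRoot.root _ := by
  unfold tauR
  rw [AdjoinRoot.lift_root]

theorem tauR_smul (c : F) (f : AdjoinRoot (X ^ a : F[X])) :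
    tauR hF a (c • f) = frobHom hF c • tauR hF a f := by
  rw [Algebra.smul_def, map_mul, Algebra.smul_def]
  congr 1
  exact AdjoinRoot.lift_of _

theorem tauR_tauR (f : AdjoinRoot (X ^ a : F[X])) : tauR hF a (tauR hF a f) = f := by
  obtain ⟨f, rfl⟩ := AdjoinRoot.mk_surjective f
  rw [tauR_mk, tauR_mk, Polynomial.map_map]
  have h1 : (frobHom hF).comp (frobHom hF) = RingHom.id F := by
    ext x
    exact frob_frob hF x
  rw [h1, Polynomial.map_id]

theorem coeffTop_tau (ha : a ≠ 0) (f : AdjoinRoot (X ^ a : F[X])) :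
    coeffTop F a (tauR hF a f) = frobHom hF (coeffTop F a f) := by
  obtain ⟨f, rfl⟩ := AdjoinRoot.mk_surjective f
  rw [tauR_mk, coeffTop_mk ha, coeffTop_mk ha, coeff_map]

/-- The Hermitian form on the truncated polynomial ring. -/
noncomputable def formR (f g : AdjoinRoot (X ^ a : F[X])) : F := coeffTop F a (f * tauR hF a g)

theorem formR_fm (ha : a ≠ 0) : Fm (frobHom hF) 1 (formR hF a) := by
  refine ⟨fun u v w => ?_, fun c u v => ?_, fun u v => ?_, fun u hu => ?_, frob_frob hF, one_ne_zero⟩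
  · simp only [formR, add_mul, map_add]
  · simp only [formR, smul_mul_assoc, map_smul, smul_eq_mul]
  · simp only [formR, one_mul]
    rw [← coeffTop_tau hF a ha, map_mul (tauR hF a), tauR_tauR, mul_comm]
  · apply coeffTop_sep ha
    intro g
    have := hu (tauR hF a g)
    rw [formR, tauR_tauR] at this
    exact this

theorem formR_iso {w : AdjoinRoot (X ^ a : F[X])} (hw : w * tauR hF a w = 1) :
    Iso (formR hF a) (Algebra.lmul F _ w : End F (AdjoinRoot (X ^ a : F[X]))) := by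
  intro u v
  change coeffTop F a ((w * u) * tauR hF a (w * v)) = coeffTop F a (u * tauR hF a v)
  rw [map_mul (tauR hF a)]
  have : (w * u) * (tauR hF a w * tauR hF a v) = (w * tauR hF a w) * (u * tauR hF a v) := by ring
  rw [this, hw, one_mul]

end Tau

theorem cay_mul_tau {A : Type*} [CommRing A] (τ : A →+* A) {x : A} {k : ℕ} (hx : x ^ k = 0)
    (hτ : τ x = -x) : cay x k * τ (cay x k) = 1 := by
  have h := one_sub_mul_geom hx
  have h2 : (1 + x) * τ (∑ i ∈ Finset.range k, x ^ i) = 1 := by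
    have h3 := congrArg τ h
    rw [map_mul, map_sub, map_one, hτ, sub_neg_eq_add] at h3
    exact h3
  unfold cay
  rw [map_mul, map_add, map_one, hτ]
  calc ((1 + x) * ∑ i ∈ Finset.range k, x ^ i) * ((1 + -x) * τ (∑ i ∈ Finset.range k, x ^ i))
      = ((1 + x) * τ (∑ i ∈ Finset.range k, x ^ i)) * ((1 - x) * ∑ i ∈ Finset.range k, x ^ i) := by
        ring
    _ = 1 := by rw [h, h2, one_mul]

section Piece

variable {p : ℕ} [Fact p.Prime] [CharP F p]

include p in
/-- A piece of the model from a suitable unit. -/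
theorem piece_of_unit (hF : Fintype.card F = q ^ 2) {a : ℕ} (ha0 : a ≠ 0) (hap : a ≤ p)
    {w : AdjoinRoot (X ^ a : F[X])} (hw : w * tauR hF a w = 1) (h1 : (w - 1) ^ a = 0)
    (h3 : (w - 1) ^ (a - 1) ≠ 0) :
    ∃ (V : Type u) (_ : AddCommGroup V) (_ : Module F V) (_ : FiniteDimensional F V)
      (B : V → V → F) (T : End F V), Fm (frobHom hF) 1 B ∧ Iso B T ∧ T ^ p = 1 ∧ finrank F V = a ∧
      ∀ j, Dk T ((X - 1) ^ j : F[X]) = min a j := by
  haveI := finite_trunc (F := F) a
  haveI := nontrivial_trunc (F := F) ha0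
  have hp := pow_of_nil (F := F) (p := p) ha0 hap h1
  refine ⟨AdjoinRoot (X ^ a : F[X]), inferInstance, inferInstance, inferInstance, formR hF a,
    Algebra.lmul F _ w, formR_fm hF a ha0, formR_iso hF a hw, ?_, finrank_trunc a, ?_⟩
  · rw [← map_pow, hp, map_one]
  · intro j
    obtain ⟨k, rfl⟩ : ∃ k, a = k + 1 := ⟨a - 1, by omega⟩
    exact Dk_profile (finrank_trunc (k + 1)) h1 h3 j

include p in
/-- A single block in odd characteristic. -/
theorem exists_piece_odd (hF : Fintype.card F = q ^ 2) (h2 : (2 : F) ≠ 0) {a : ℕ} (ha0 : a ≠ 0)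
    (hap : a ≤ p) :
    ∃ (V : Type u) (_ : AddCommGroup V) (_ : Module F V) (_ : FiniteDimensional F V)
      (B : V → V → F) (T : End F V), Fm (frobHom hF) 1 B ∧ Iso B T ∧ T ^ p = 1 ∧ finrank F V = a ∧
      ∀ j, Dk T ((X - 1) ^ j : F[X]) = min a j := by
  haveI := nontrivial_trunc (F := F) ha0
  obtain ⟨c, hc⟩ := exists_sigma_ne hF
  set ζ := c - frobHom hF c with hζ
  have hζ0 : ζ ≠ 0 := sub_ne_zero.mpr (Ne.symm hc)
  have hζσ : frobHom hF ζ = -ζ := by
    have hσσ : ∀ x, frobHom hF (frobHom hF x) = x := frob_frob hF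
    rw [hζ, map_sub, hσσ]
    ring
  set ρ := AdjoinRoot.root (X ^ a : F[X]) with hρ
  set x : AdjoinRoot (X ^ a : F[X]) := ζ • ρ with hx
  have hxj : ∀ j, x ^ j = 0 ↔ a ≤ j := by
    intro j
    rw [hx, _root_.smul_pow, smul_eq_zero]
    constructor
    · rintro (h | h)
      · exact absurd h (pow_ne_zero _ hζ0)
      · exact (Cfsg.Agent.Lib.SLn.Spec.root_pow_eq_zero_iff).mp h
    · intro h
      exact Or.inr ((Cfsg.Agent.Lib.SLn.Spec.root_pow_eq_zero_iff).mpr h)
  have hnil : x ^ a = 0 := (hxj a).mpr le_rfl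
  have hunit : IsUnit (2 : AdjoinRoot (X ^ a : F[X])) := by
    have : (2 : AdjoinRoot (X ^ a : F[X])) = algebraMap F _ 2 := (map_ofNat (algebraMap F _) 2).symm
    rw [this]
    exact (IsUnit.mk0 _ h2).map _
  have hτx : tauR hF a x = -x := by
    rw [hx, tauR_smul, tauR_root, hζσ, neg_smul]
  refine piece_of_unit (p := p) hF ha0 hap (cay_mul_tau _ hnil hτx)
    ((cay_sub_one_pow hnil hunit a).mpr hnil) ?_
  intro h
  have := (hxj _).mp ((cay_sub_one_pow hnil hunit _).mp h)
  omega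

include p in
/-- A single block of size two in characteristic two. -/
theorem exists_piece_two (hF : Fintype.card F = q ^ 2) (hp2 : p = 2) :
    ∃ (V : Type u) (_ : AddCommGroup V) (_ : Module F V) (_ : FiniteDimensional F V)
      (B : V → V → F) (T : End F V), Fm (frobHom hF) 1 B ∧ Iso B T ∧ T ^ p = 1 ∧ finrank F V = 2 ∧
      ∀ j, Dk T ((X - 1) ^ j : F[X]) = min 2 j := by
  subst hp2
  have hchar : (2 : F) = 0 := by
    have := CharP.cast_eq_zero F 2
    exact_mod_cast this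
  haveI := nontrivial_trunc (F := F) (a := 2) two_ne_zero
  set ρ := AdjoinRoot.root (X ^ 2 : F[X]) with hρ
  have hρ2 : ρ ^ 2 = 0 := root_pow_self 2
  have hchar' : (2 : AdjoinRoot (X ^ 2 : F[X])) = 0 := by
    have : (2 : AdjoinRoot (X ^ 2 : F[X])) = algebraMap F _ 2 := (map_ofNat (algebraMap F _) 2).symm
    rw [this, hchar, map_zero]
  have hw : (1 + ρ) * tauR hF 2 (1 + ρ) = 1 := by
    rw [map_add, map_one, tauR_root]
    linear_combination hρ2 + ρ * hchar'
  refine piece_of_unit (p := 2) hF two_ne_zero le_rfl hw ?_ ?_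
  · rw [add_sub_cancel_left]
    exact hρ2
  · rw [add_sub_cancel_left]
    intro h
    have := (Cfsg.Agent.Lib.SLn.Spec.root_pow_eq_zero_iff).mp h
    omega

include p in
/-- Models for all admissible types. -/
theorem model_mu (hF : Fintype.card F = q ^ 2) (μ : Multiset ℕ) (h0 : ∀ a ∈ μ, 0 < a ∧ a ≤ p)
    (hμ : (2 : F) ≠ 0 ∨ ∀ a ∈ μ, a = 2 ∧ p = 2) :
    ∃ (V : Type u) (_ : AddCommGroup V) (_ : Module F V) (_ : FiniteDimensional F V)
      (B : V → V → F) (T : End F V), Fm (frobHom hF) 1 B ∧ Iso B T ∧ T ^ p = 1 ∧ finrank F V = μ.sum ∧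
      ∀ j, Dk T ((X - 1) ^ j : F[X]) = (μ.map (fun a => min a j)).sum := by
  classical
  induction μ using Multiset.induction_on with
  | empty =>
    refine ⟨Fin 0 → F, inferInstance, inferInstance, inferInstance, _, 1, triv_fm hF 0, triv_iso 0,
      one_pow _, by simp, ?_⟩
    intro j
    unfold Dk
    have h3 := Submodule.finrank_le (LinearMap.ker (Polynomial.aeval (1 : End F (Fin 0 → F))
      ((X - 1) ^ j : F[X])))
    simp only [Multiset.map_zero, Multiset.sum_zero]
    simpa using h3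
  | cons a μ ih =>
    obtain ⟨V, i1, i2, i3, B, T, hB, hT, hTp, hf, hD⟩ := ih (fun b hb => h0 b (Multiset.mem_cons_of_mem hb))
      (hμ.imp id (fun h b hb => h b (Multiset.mem_cons_of_mem hb)))
    obtain ⟨ha0, hap⟩ := h0 a (Multiset.mem_cons_self a μ)
    obtain ⟨V', i1', i2', i3', B', T', hB', hT', hTp', hf', hD'⟩ :
        ∃ (V : Type u) (_ : AddCommGroup V) (_ : Module F V) (_ : FiniteDimensional F V)
          (B : V → V → F) (T : End F V), Fm (frobHom hF) 1 B ∧ Iso B T ∧ T ^ p = 1 ∧ finrank F V = a ∧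
          ∀ j, Dk T ((X - 1) ^ j : F[X]) = min a j := by
      rcases hμ with h2 | h2
      · exact exists_piece_odd (p := p) hF h2 ha0.ne' hap
      · obtain ⟨rfl, hp2⟩ := h2 a (Multiset.mem_cons_self a μ)
        exact exists_piece_two (p := p) hF hp2
    refine ⟨V' × V, inferInstance, inferInstance, inferInstance, _, LinearMap.prodMap T' T,
      Fm_prod hB' hB, Iso_prod hT' hT, ?_, ?_, ?_⟩
    · rw [prodMap_pow, hTp, hTp', LinearMap.prodMap_one]
    · rw [Module.finrank_prod, hf, hf', Multiset.sum_cons]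
    · intro j
      rw [Dk_prod, hD, hD', Multiset.map_cons, Multiset.sum_cons]

end Piece

section Dec

variable {V : Type*} [AddCommGroup V] [Module F V] [FiniteDimensional F V] {B : V → V → F}

/-- A nonzero value of the form on a vector and its image under the top power. -/
theorem exists_top (hF : Fintype.card F = q ^ 2) (hB : Fm (frobHom hF) 1 B) {N : End F V} {U : Submodule F V}
    (hU : Nd B U) (hUi : Inv N U) {k : ℕ} (hne : ∃ v ∈ U, (N ^ k) v ≠ 0) :
    ∃ u ∈ U, B u ((N ^ k) u) ≠ 0 := by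
  obtain ⟨v, hv, hv0⟩ := hne
  have hmem : (N ^ k) v ∈ U := by
    have := Inv.aeval hUi (X ^ k : F[X])
    simpa using this v hv
  obtain ⟨x, hx, hx0⟩ : ∃ x ∈ U, B ((N ^ k) v) x ≠ 0 := by
    by_contra hcon
    push Not at hcon
    exact hv0 (hU _ hmem hcon)
  have hx1 : B x ((N ^ k) v) ≠ 0 := fun h => hx0 ((hB.eq_zero_comm _ _).mp h)
  exact exists_self_ne (exists_sigma_ne hF) (U := U) (fun x z => B x ((N ^ k) z))
    (fun x y z => hB.add_l x y _) (fun x y z => by simp only [map_add, hB.add_r])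
    (fun c x z => hB.smul_l c x _) (fun c x z => by simp only [map_smul, hB.smul_r]) hx hv hx1

theorem decomp_un (hF : Fintype.card F = q ^ 2) (hB : Fm (frobHom hF) 1 B) {y N : End F V}
    (hy : Iso B y) (hN : y = 1 + N) {s : ℕ} (hs : y ^ (s + 1) = 1) {L : ℕ}
    (hL : N ^ L = 0) {U : Submodule F V} (hU : Nd B U) (hUi : Inv N U) :
    ∃ μ : Multiset ℕ, (∀ a ∈ μ, 0 < a ∧ a ≤ L) ∧ μ.sum = finrank F U ∧
      (∀ j, Dd N U j = (μ.map (fun a => min a j)).sum) ∧
      ∀ ν : Multiset ℕ, ν ≤ μ →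
        ∃ W : Submodule F V, W ≤ U ∧ Nd B W ∧ Inv N W ∧ finrank F W = ν.sum := by
  have hinj : Function.Injective y := by
    have h1 : y ^ s * y = 1 := by rw [← pow_succ, hs]
    intro a b hab
    have h2 := congrArg (y ^ s) hab
    rw [← Module.End.mul_apply, ← Module.End.mul_apply, h1] at h2
    exact h2
  obtain ⟨μ, h1, h2, h3, h4, h5⟩ := decomp hB hy hinj hN hL (fun _ => 1) (fun _ => one_pos)
    (fun U k hU hUi hk hne => by
      obtain ⟨u, huU, hu⟩ := exists_top hF hB hU hUi hne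
      exact step_one hB hy hN hs (inv_y hN hUi) hUi hk huU hu) _ U rfl hU hUi
  exact ⟨μ, h1, h3, h4, fun ν hν => h5 ν hν (fun _ => one_dvd _)⟩

end Dec

section Main

variable {p : ℕ} [Fact p.Prime] [CharP F p] {V : Type*} [AddCommGroup V] [Module F V]
  [FiniteDimensional F V] {B : V → V → F} {T : End F V}

theorem pos_rp (hF : Fintype.card F = q ^ 2) (hB : Fm (frobHom hF) 1 B) (hT : Iso B T)
    (hpq : ¬ p ∣ q + 1) {z : F} (hTr : T ^ p = z • 1) (hz : z ^ (q + 1) = 1) {m : ℕ}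
    (hprop : ∀ μ : Multiset ℕ, (∀ a ∈ μ, 0 < a ∧ a ≤ p) → μ.sum = finrank F V →
      ∃ ν : Multiset ℕ, ν ≤ μ ∧ ν.sum = m) :
    ∃ W : Submodule F V, Nd B W ∧ Inv T W ∧ finrank F W = m := by
  have hp : p.Prime := Fact.out
  obtain ⟨s, hs, hs1⟩ := exists_root_coprime hp hpq hz
  obtain ⟨hs0, hy, hyr⟩ := exists_scale hF hB hT hp hTr hs hs1
  set y := s⁻¹ • T with hydef
  set N : End F V := y - 1 with hN
  have hTN : y = 1 + N := by
    rw [hN]
    abel
  have hNp : N ^ p = 0 := by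
    rw [hN, Cfsg.Agent.Lib.ElusL.Dec5.pow_sub_one (p := p), hyr, sub_self]
  have hs' : y ^ (p - 1 + 1) = 1 := by
    rw [Nat.sub_add_cancel hp.one_le, hyr]
  obtain ⟨μ, h1, h3, -, h5⟩ := decomp_un hF hB hy hTN hs' hNp (U := ⊤) hB.nd_top (fun v _ => trivial)
  rw [finrank_top] at h3
  obtain ⟨ν, h6, h7⟩ := hprop μ h1 h3
  obtain ⟨W, -, h9, h10, h11⟩ := h5 ν h6
  refine ⟨W, h9, ?_, by rw [h11, h7]⟩
  exact (Cfsg.Agent.Lib.ElusL.Pos.inv_smul_iff (inv_ne_zero hs0)).mp (inv_y hTN h10)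

omit [FiniteDimensional F V] in
theorem det_of_pow [FiniteDimensional F V] (hTp : T ^ p = 1) : LinearMap.det T = 1 := by
  have h1 : (LinearMap.det T) ^ p = 1 := by rw [← map_pow, hTp, map_one]
  apply frobenius_inj F p
  rw [frobenius_def, frobenius_def, h1, one_pow]

/-- The negative direction for `r = p`. -/
theorem neg_rp_un (hF : Fintype.card F = q ^ 2) {n m : ℕ} (hmn : m ≤ n)
    (hL : ∀ x : Matrix.SpecialLinearGroup (Fin n) F, x ∈ Cfsg.SU n F q →
      (∃ z : F, ((x ^ p : Matrix.SpecialLinearGroup (Fin n) F) : Matrix (Fin n) (Fin n) F) = z • (1 : Matrix (Fin n) (Fin n) F)) →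
      (∀ z : F, (x : Matrix (Fin n) (Fin n) F) ≠ z • (1 : Matrix (Fin n) (Fin n) F)) →
      ∃ W : Submodule F (Fin n → F), Module.finrank F ↥W = m ∧ (∀ u ∈ W, u ≠ 0 → ∃ v ∈ W, Cfsg.hermForm n F q u v ≠ 0) ∧
        W.map (Matrix.toLin' (x : Matrix (Fin n) (Fin n) F)) ≤ W)
    (μ : Multiset ℕ) (h0 : ∀ a ∈ μ, 0 < a ∧ a ≤ p) (hμ : (2 : F) ≠ 0 ∨ ∀ a ∈ μ, a = 2 ∧ p = 2)
    (hsum : μ.sum = n) : ∃ ν : Multiset ℕ, ν ≤ μ ∧ ν.sum = m := by
  classical
  have hp : p.Prime := Fact.out
  by_contra hcon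
  push Not at hcon
  have hpart : ∃ a ∈ μ, 2 ≤ a := by
    by_contra hall
    push Not at hall
    have h1 : ∀ a ∈ μ, a = 1 := fun a ha => by
      have := (h0 a ha).1
      have := hall a ha
      omega
    have hμ' : μ = Multiset.replicate μ.card 1 := Multiset.eq_replicate_card.mpr h1
    have hcard : μ.card = n := by
      rw [← hsum]
      conv_rhs => rw [hμ']
      simp
    apply hcon (Multiset.replicate m 1) (by
      rw [hμ', hcard]
      exact Multiset.replicate_le_replicate _ |>.mpr hmn)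
    simp
  obtain ⟨V, i1, i2, i3, B, T, hB, hT, hTp, hf, hD⟩ := model_mu (p := p) hF μ h0 hμ
  set N : End F V := T - 1 with hN
  have hTN : T = 1 + N := by
    rw [hN]
    abel
  have hNp : N ^ p = 0 := by
    rw [hN, Cfsg.Agent.Lib.ElusL.Dec5.pow_sub_one (p := p), hTp, sub_self]
  have hs : T ^ (p - 1 + 1) = 1 := by
    rw [Nat.sub_add_cancel hp.one_le, hTp]
  have hinj : Function.Injective T := by
    have h1 : T ^ (p - 1) * T = 1 := by rw [← pow_succ, hs]
    intro a b hab
    have h2 := congrArg (T ^ (p - 1)) hab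
    rw [← Module.End.mul_apply, ← Module.End.mul_apply, h1] at h2
    exact h2
  have hDk : ∀ j, Dk T ((X - 1) ^ j : F[X]) = finrank F (LinearMap.ker (N ^ j)) := by
    intro j
    unfold Dk
    have : Polynomial.aeval T ((X - 1) ^ j : F[X]) = N ^ j := by
      rw [map_pow, map_sub, aeval_X, map_one]
    rw [this]
  refine false_of_nd (z := 1) hF hB hT (by rw [hf, hsum]) (det_of_pow (p := p) hTp)
    (by rw [hTp, one_smul]) ?_ ?_ hL
  · intro z hz
    obtain ⟨a, ha, ha2⟩ := id hpart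
    have hpos : 0 < finrank F V := by
      have := (h0 a ha).1
      have := Cfsg.Agent.Lib.ElusF.SpNdThm.sum_min_one_lt hpart
      rw [hf]
      omega
    haveI := Module.nontrivial_of_finrank_pos (R := F) hpos
    obtain ⟨v, hv⟩ := exists_ne (0 : V)
    have h1 : z ^ p = 1 := by
      have h2 := hTp
      rw [hz, _root_.smul_pow, one_pow] at h2
      have h3 := congrArg (fun S : End F V => S v) h2
      simp only [LinearMap.smul_apply, Module.End.one_apply] at h3
      have h4 : (z ^ p - 1) • v = 0 := by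
        rw [sub_smul, one_smul, h3, sub_self]
      exact sub_eq_zero.mp ((smul_eq_zero.mp h4).resolve_right hv)
    have h2 : z = 1 := by
      apply frobenius_inj F p
      rw [frobenius_def, frobenius_def, h1, one_pow]
    have h3 : N = 0 := by
      rw [hN, hz, h2, one_smul, sub_self]
    have h4 := hD 1
    rw [hDk, pow_one, h3, LinearMap.ker_zero, finrank_top, hf] at h4
    have h5 := Cfsg.Agent.Lib.ElusF.SpNdThm.sum_min_one_lt hpart
    omega
  · intro W hW hWi hWm
    have hWN : Inv N W := inv_N hTN hWi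
    set O := hB.orth W with hO
    have hOnd : Nd B O := hB.nd_orth hW
    have hOy : Inv T O := hB.inv_orth hT hinj hWi
    have hON : Inv N O := inv_N hTN hOy
    obtain ⟨ν, h1, h3, h4, -⟩ := decomp_un hF hB hT hTN hs hNp hW hWN
    obtain ⟨ν', h1', h3', h4', -⟩ := decomp_un hF hB hT hTN hs hNp hOnd hON
    have hle : ν ≤ μ := by
      apply count_eq_of_profile (ν' := ν') (fun a ha => (h0 a ha).1) _ (fun a ha => (h1 a ha).1)
      intro j
      rw [← hD, hDk, Dd_add (hB.isCompl_orth hW) hWN hON, h4, h4']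
    exact hcon ν hle (by rw [h3, hWm])

end Main

end Cfsg.Agent.Lib.ElusF.HzUni
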