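import Cfsg.Agent.Lib.ElusF.HzTIThm
import Cfsg.Agent.Lib.ElusF.HzUni

/-!
# The unitary criterion for nondegenerate subspaces
-/

set_option autoImplicit false
set_option linter.unusedSectionVars false
set_option linter.style.haveILetI false
set_option linter.unusedVariables false

open Polynomial Module Matrix

universe u

namespace Cfsg.Agent.Lib.ElusF.HzNdThm

open Cfsg Cfsg.Agent.Lib.ElusL.Basic Cfsg.Agent.Lib.ElusL.Flag Cfsg.Agent.Lib.ElusL.Cyc
  Cfsg.Agent.Lib.ElusL.Pos Cfsg.Agent.Lib.ElusF.Form Cfsg.Agent.Lib.ElusF.Step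
  Cfsg.Agent.Lib.ElusF.Split Cfsg.Agent.Lib.ElusF.SpModel Cfsg.Agent.Lib.ElusF.SpNeg
  Cfsg.Agent.Lib.HermCount.Field Cfsg.Agent.Lib.ElusF.HzBase Cfsg.Agent.Lib.ElusF.HzAdj
  Cfsg.Agent.Lib.ElusF.HzArith Cfsg.Agent.Lib.ElusF.HzModel Cfsg.Agent.Lib.ElusF.HzMat
  Cfsg.Agent.Lib.ElusL.Arith Cfsg.Agent.Lib.ElusF.HzList Cfsg.Agent.Lib.ElusF.HzI2
  Cfsg.Agent.Lib.ElusF.HzTwo Cfsg.Agent.Lib.ElusF.HzTwoB Cfsg.Agent.Lib.ElusF.HzTI
  Cfsg.Agent.Lib.ElusF.HzCount Cfsg.Agent.Lib.ElusL.Bridge Cfsg.Agent.Lib.ElusF.HzTIThm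
  Cfsg.Agent.Lib.ElusF.HzUni

variable {F : Type u} [Field F] [Fintype F]

theorem main {p : ℕ} [Fact p.Prime] [CharP F p] {q : ℕ} (hq : Fintype.card F = q ^ 2)
    (n m : ℕ) (hn : 3 ≤ n) (hm : 1 ≤ m) (hmn : 2 * m < n)
    (r : ℕ) [Fact r.Prime]
    (hrΩ : r ∣ Nat.card {W : Submodule F (Fin n → F) // Module.finrank F ↥W = m ∧ (∀ u ∈ W, u ≠ 0 → ∃ v ∈ W, Cfsg.hermForm n F q u v ≠ 0)})
    (i b c : ℕ) (hi : i = orderOf (q : ZMod r)) (hb : b = if Even i then i / 2 else i)
    (hc : c = if i % 4 = 0 then i else if i % 4 = 2 then i / 2 else 2 * i) :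
    (∀ x : Matrix.SpecialLinearGroup (Fin n) F, x ∈ Cfsg.SU n F q →
      (∃ z : F, ((x ^ r : Matrix.SpecialLinearGroup (Fin n) F) : Matrix (Fin n) (Fin n) F) = z • (1 : Matrix (Fin n) (Fin n) F)) →
      (∀ z : F, (x : Matrix (Fin n) (Fin n) F) ≠ z • (1 : Matrix (Fin n) (Fin n) F)) →
      ∃ W : Submodule F (Fin n → F), Module.finrank F ↥W = m ∧ (∀ u ∈ W, u ≠ 0 → ∃ v ∈ W, Cfsg.hermForm n F q u v ≠ 0) ∧
        W.map (Matrix.toLin' (x : Matrix (Fin n) (Fin n) F)) ≤ W) ↔
    ((r = p ∧ 2 < p ∧ (∀ μ : Multiset ℕ, (∀ a ∈ μ, 0 < a ∧ a ≤ p) → μ.sum = n → ∃ ν : Multiset ℕ, ν ≤ μ ∧ ν.sum = m)) ∨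
     (r = p ∧ p = 2 ∧ (Odd n ∨ Even m)) ∨
     (r = 2 ∧ p ≠ 2 ∧ (Odd n ∨ Even m ∨ (padicValNat 2 n ≤ padicValNat 2 (q + 1) ∧ q % 4 = 3))) ∨
     (r ≠ p ∧ 2 < r ∧ ((i ≠ 2 ∧ c ≤ m ∧ m % c ≤ n % c) ∨ (i = 2 ∧ (r ∣ m ∨ padicValNat r n ≤ padicValNat r (q + 1)))))) := by
  have hr : r.Prime := Fact.out
  have hq1 : 1 ≤ q := by
    rcases Nat.eq_zero_or_pos q with h0 | h0
    · have h1 : 1 < Fintype.card F := Fintype.one_lt_card
      rw [hq, h0] at h1
      simp at h1
    · exact h0
  have hfin : finrank F (Fin n → F) = n := by simp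
  have hmle : m ≤ n := by omega
  constructor
  · intro hL
    by_cases hrp : r = p
    · subst hrp
      by_cases hp2 : r = 2
      · right; left
        refine ⟨rfl, hp2, ?_⟩
        by_contra hcon
        rw [not_or, Nat.not_odd_iff_even] at hcon
        obtain ⟨hne, hmo⟩ := hcon
        obtain ⟨ν, h1, h3⟩ := neg_rp_un hq hmle hL (Multiset.replicate (n / 2) 2)
          (fun a ha => by
            rw [Multiset.eq_of_mem_replicate ha]
            omega)
          (Or.inr (fun a ha => ⟨Multiset.eq_of_mem_replicate ha, hp2⟩))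
          (by
            rw [Multiset.sum_replicate, smul_eq_mul]
            have := Nat.even_iff.mp hne
            omega)
        have h4 := Cfsg.Agent.Lib.ElusL.Dec5.p2_even _ _ h1
        rw [h3] at h4
        exact hmo h4
      · left
        have hr3 : 2 < r := by
          have := hr.two_le
          omega
        refine ⟨rfl, hr3, ?_⟩
        intro μ h0 hsum
        have h2 : (2 : F) ≠ 0 := by
          intro h
          have h1 : ((2 : ℕ) : F) = 0 := by exact_mod_cast h
          rw [CharP.cast_eq_zero_iff F r] at h1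
          exact hp2 ((Nat.prime_dvd_prime_iff_eq hr Nat.prime_two).mp h1)
        exact neg_rp_un hq hmle hL μ h0 (Or.inl h2) hsum
    · obtain ⟨hrF, hrQ⟩ := r_facts hq hr hrp
      have hrq : ¬ r ∣ q := fun h => hrQ (h.trans (dvd_pow_self q two_ne_zero))
      by_cases hr2 : r = 2
      · subst hr2
        right; right; left
        have hp2 : p ≠ 2 := fun h => hrp h.symm
        refine ⟨rfl, hp2, ?_⟩
        by_contra hcon
        rw [not_or, not_or, Nat.not_odd_iff_even] at hcon
        obtain ⟨hne, hmo, hvq⟩ := hcon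
        obtain ⟨h2', hqo⟩ := odd_of_two hq hp2
        obtain ⟨V, i1, i2, i3, B, T, z, hB, hT, hTr, hf, hdet, hNS, hno⟩ :=
          neg_nd_model hq h2' hqo (n := n) (by omega) hne hvq
        refine false_of_nd hq hB hT hf hdet hTr hNS ?_ hL
        intro W hW hWi hWm
        apply hmo
        rw [← hWm]
        exact hno W hW hWi
      · right; right; right
        have hr3 : 2 < r := by
          have := hr.two_le
          omega
        refine ⟨hrp, hr3, ?_⟩
        have hipos : 0 < i := by
          rw [hi]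
          exact ord_pos hr hrq
        obtain ⟨hbpos, hcpos, hc2, hc4⟩ := bc_facts hipos hb hc
        have hord : orderOf ((q ^ 2 : ℕ) : ZMod r) = b := orderOf_q2 hi hb
        have hdeg : ∀ g : F[X], Irreducible g → g ∣ Phi F r → g.natDegree = b := by
          intro g hg hgd
          rw [← hord]
          exact natDegree_factor hq hr hrF hrQ hg hgd
        by_cases hi2 : i = 2
        · right
          have hdvd : r ∣ q + 1 := by
            rw [dvd_succ_iff hr2, ← hi]
            exact hi2
          refine ⟨hi2, ?_⟩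
          by_contra hcon
          rw [not_or, not_le] at hcon
          obtain ⟨h1, h3⟩ := hcon
          obtain ⟨V, i1, i2, i3, B, T, z, hB, hT, hTr, hf, hdet, hNS, hno⟩ :=
            exists_gamma hq hr hr2 hdvd hrq (n := n) (by omega) h3
          refine false_of_nd hq hB hT hf hdet hTr hNS ?_ hL
          intro W _ hInv hW
          apply h1
          rw [← hW]
          exact hno W hInv
        · left
          obtain ⟨l, hl1, hl2, hl3⟩ := nd_dvd hq hmle hr hrq hrΩ
          have hcl : c ∣ l := c_dvd_exp hr2 hq1 hi hc hl3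
          obtain ⟨hcn, hnc⟩ := order_facts hcpos hl1 hl2 hcl
          have hrq1 : ¬ r ∣ q + 1 := by
            rw [dvd_succ_iff hr2, ← hi]
            exact hi2
          have hmodle : m % c ≤ n % c := by
            by_contra hcon
            push Not at hcon
            by_cases hi4 : i % 4 = 2
            · obtain ⟨hcb, hbo, hib⟩ := hc2 hi4
              subst hcb
              have hb1 : c ≠ 1 := by
                rintro h
                rw [h, Nat.mod_one, Nat.mod_one] at hcon
                omega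
              have hrc : r ∣ q ^ c + 1 := dvd_pow_add_one hr (by rw [← hi, hib]) hcpos
              obtain ⟨V, i1, i2, i3, B, T, hB, hT, hTr, hf, hD, hNS⟩ :=
                exists_alpha_B hq hr hrF hrq hr2 hord hbo hb1 hrc hcn
              refine false_of_nd (z := 1) hq hB hT hf (det_one hq hB hT hr hrq1 hTr) (by rw [hTr, one_smul]) hNS ?_ hL
              intro W hW hWi hWm
              have h1 := Cfsg.Agent.Lib.ElusF.SpNdThm.bound_nd (B := B) (q := q) hrF hTr hWi
                (dvd_finrank_inf (Phi_ne_zero (F := F) hr) hdeg hWi)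
              rw [hD, hWm] at h1
              omega
            · have hcb := hc4 hi4
              subst hcb
              obtain ⟨V, i1, i2, i3, B, T, hB, hT, hTr, hf, hD, hNS⟩ :=
                exists_alpha_A hq hr hrF hrq hrq1 hr2 hord hbpos hcn
              refine false_of_nd (z := 1) hq hB hT hf (det_one hq hB hT hr hrq1 hTr) (by rw [hTr, one_smul]) hNS ?_ hL
              intro W hW hWi hWm
              have h3 : 2 * orderOf ((q ^ 2 : ℕ) : ZMod r) ∣
                  finrank F (W ⊓ LinearMap.ker (Polynomial.aeval T (Phi F r)) : Submodule F V) :=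
                two_mul_dvd hq hB hT hTr hr hr2 hrF hrq (by rw [← hi]; exact hi4) _ _ rfl inf_le_right
                  (nd1 hB hT hrF hTr hW hWi) (hB.inv_inf hWi (inv_ker T _))
              rw [hord] at h3
              have h1 := Cfsg.Agent.Lib.ElusF.SpNdThm.bound_nd (B := B) (q := q) hrF hTr hWi h3
              rw [hD, hWm] at h1
              omega
          have hcm : c ≤ m := by
            by_contra hlt
            push Not at hlt
            rw [Nat.mod_eq_of_lt hlt] at hmodle
            omega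
          exact ⟨hi2, hcm, hmodle⟩
  · intro hR x hx ⟨z, hz⟩ hns
    have hB := fm_std (F := F) n hq
    have hT := iso_std hx
    have hTr := pow_toLin hz
    have hdet := det_toLin x
    suffices hW : ∃ W : Submodule F (Fin n → F), Nd (Cfsg.hermForm n F q) W ∧
        Inv (Matrix.toLin' (x : Matrix (Fin n) (Fin n) F)) W ∧ finrank F W = m by
      obtain ⟨W, h1, h2, h3⟩ := hW
      exact ⟨W, h3, (nd_std_iff W).mpr h1, (map_le_iff _ W).mpr h2⟩
    have hpos : 0 < finrank F (Fin n → F) := by
      rw [hfin]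
      omega
    have hznorm := scalar_norm hq hB hT hTr hpos
    have hz0 : z ≠ 0 := by
      rintro rfl
      rw [zero_pow (by omega)] at hznorm
      exact zero_ne_one hznorm
    have hpq : ¬ p ∣ q + 1 := by
      intro h
      have h1 : p ∣ q := char_dvd (p := p) hq
      have h3 : p ∣ 1 := (Nat.dvd_add_right h1).mp h
      exact (Fact.out : p.Prime).one_lt.ne' (Nat.dvd_one.mp h3)
    rcases hR with ⟨hrp, hp2, hprop⟩ | ⟨hrp, hp2, hcond⟩ | ⟨hr2, hp2, hcond⟩ | ⟨hrp, hr3, hcase⟩
    · subst hrp
      exact pos_rp hq hB hT hpq hTr hznorm (fun μ h0 hs => hprop μ h0 (by rw [hs, hfin]))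
    · subst hrp
      refine pos_rp hq hB hT hpq hTr hznorm (fun μ h0 hs => ?_)
      rw [hfin] at hs
      subst hp2
      exact Cfsg.Agent.Lib.ElusL.Dec5.p2_exists μ h0 (by rw [hs]; exact hmle) (by rw [hs]; exact hcond)
    · subst hr2
      obtain ⟨h2', hqo⟩ := odd_of_two hq hp2
      exact back_nd hq hB hT h2' hqo hTr hpos hdet (by rw [hfin]; exact hmle) (by rw [hfin]; exact hcond)
    · obtain ⟨hrF, hrQ⟩ := r_facts hq hr hrp
      have hrq : ¬ r ∣ q := fun h => hrQ (h.trans (dvd_pow_self q two_ne_zero))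
      have hr2 : r ≠ 2 := by omega
      have hipos : 0 < i := by
        rw [hi]
        exact ord_pos hr hrq
      obtain ⟨hbpos, hcpos, hc2, hc4⟩ := bc_facts hipos hb hc
      have hord : orderOf ((q ^ 2 : ℕ) : ZMod r) = b := orderOf_q2 hi hb
      have hdeg : ∀ g : F[X], Irreducible g → g ∣ Phi F r → g.natDegree = b := by
        intro g hg hgd
        rw [← hord]
        exact natDegree_factor hq hr hrF hrQ hg hgd
      rcases hcase with ⟨hi2, hcm, hmodle⟩ | ⟨hi2, hcond⟩
      · have hrq1 : ¬ r ∣ q + 1 := by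
          rw [dvd_succ_iff hr2, ← hi]
          exact hi2
        obtain ⟨s, hs, hs1⟩ := exists_root_coprime hr hrq1 hznorm
        obtain ⟨hs0, hy, hyr⟩ := exists_scale hq hB hT hr hTr hs hs1
        set y : End F (Fin n → F) := s⁻¹ • Matrix.toLin' (x : Matrix (Fin n) (Fin n) F) with hydef
        by_cases hi4 : i % 4 = 2
        · obtain ⟨hcb, hbo, hib⟩ := hc2 hi4
          subst hcb
          have hrc : r ∣ q ^ c + 1 := dvd_pow_add_one hr (by rw [← hi, hib]) hcpos
          obtain ⟨S, hS, hprod, -⟩ := exists_factors hq hr hrF hrQ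
          rw [hord] at hS
          have hd0 := dvd_finrank_inf (T := y) (W := ⊤) (Phi_ne_zero (F := F) hr) hdeg (fun v _ => trivial)
          rw [top_inf_eq] at hd0
          obtain ⟨W, h1, h2, h3⟩ := pos_nd hq hB hy hyr hr hrF hcpos hd0
            (fun U hU₁ hU hUi hp => step_sd hq hB hy hyr hr hrF hbo hrc hS hprod hU₁ hU hUi hp)
            (m := m) (by rw [hfin]; exact hmle) (by rw [hfin]; exact hmodle)
          exact ⟨W, h1, (inv_smul_iff (inv_ne_zero hs0)).mp h2, h3⟩
        · have hcb := hc4 hi4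
          have hi4' : (haveI : Fact r.Prime := ⟨hr⟩; orderOf (q : ZMod r)) % 4 ≠ 2 := by
            rw [← hi]
            exact hi4
          have hnd1 := nd1 hB hy hrF hyr hB.nd_top (U := ⊤) (fun v _ => trivial)
          rw [top_inf_eq] at hnd1
          have hd0 : 2 * orderOf ((q ^ 2 : ℕ) : ZMod r) ∣
              finrank F (LinearMap.ker (Polynomial.aeval y (Phi F r))) :=
            two_mul_dvd hq hB hy hyr hr hr2 hrF hrq hi4' _ _ rfl le_rfl hnd1 (inv_ker y _)
          obtain ⟨W, h1, h2, h3⟩ := pos_nd hq hB hy hyr hr hrF (c := 2 * orderOf ((q ^ 2 : ℕ) : ZMod r))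
            (by rw [hord]; omega) hd0
            (fun U hU₁ hU hUi hp => step_A hq hB hy hyr hr hr2 hrF hrq hi4' hU₁ hU hUi hp)
            (m := m) (by rw [hfin]; exact hmle) (by rw [hfin, hord, ← hcb]; exact hmodle)
          exact ⟨W, h1, (inv_smul_iff (inv_ne_zero hs0)).mp h2, h3⟩
      · have hb1 : b = 1 := by
          have := hc2 (by omega)
          omega
        have hdvd : r ∣ q + 1 := by
          rw [dvd_succ_iff hr2, ← hi]
          exact hi2
        by_cases hroot : ∃ w : F, w ^ r = z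
        · obtain ⟨w, hw⟩ := hroot
          have hw1 := norm_of_root hq hr hr2 hdvd hznorm hw
          obtain ⟨hw0, hy, hyr⟩ := exists_scale hq hB hT hr hTr hw hw1
          set y : End F (Fin n → F) := w⁻¹ • Matrix.toLin' (x : Matrix (Fin n) (Fin n) F) with hydef
          obtain ⟨S, hS, hprod, -⟩ := exists_factors hq hr hrF hrQ
          rw [hord, hb1] at hS
          obtain ⟨W, h1, h2, h3⟩ := pos_nd hq hB hy hyr hr hrF (c := 1) one_pos (one_dvd _)
            (fun U hU₁ hU hUi hp => step_sd hq hB hy hyr hr hrF odd_one (by simpa using hdvd) hS hprod hU₁ hU hUi hp)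
            (m := m) (by rw [hfin]; exact hmle) (by rw [Nat.mod_one, Nat.mod_one])
          exact ⟨W, h1, (inv_smul_iff (inv_ne_zero hw0)).mp h2, h3⟩
        · push Not at hroot
          have hirr : Irreducible (X ^ r - C z : F[X]) := X_pow_sub_C_irreducible_of_prime hr hroot
          rcases hcond with h | h
          · exact pos_irr_nd hq hB hT hr hz0 hirr hTr h (by rw [hfin]; exact hmle)
          · exfalso
            have := val_of_irr hq hr hr2 hdvd hz0 hroot hTr hdet (by rw [hfin]; omega)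
            rw [hfin] at this
            omega

end Cfsg.Agent.Lib.ElusF.HzNdThm
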