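import Cfsg.Agent.Lib.ElusF.HzTwoB
import Cfsg.Agent.Lib.ElusF.HzCount

/-!
# The unitary criterion for totally isotropic subspaces
-/

set_option autoImplicit false
set_option linter.unusedSectionVars false
set_option linter.style.haveILetI false
set_option linter.unusedVariables false

open Polynomial Module Matrix

universe u

namespace Cfsg.Agent.Lib.ElusF.HzTIThm

open Cfsg Cfsg.Agent.Lib.ElusL.Basic Cfsg.Agent.Lib.ElusL.Flag Cfsg.Agent.Lib.ElusL.Cyc
  Cfsg.Agent.Lib.ElusL.Pos Cfsg.Agent.Lib.ElusF.Form Cfsg.Agent.Lib.ElusF.Step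
  Cfsg.Agent.Lib.ElusF.Split Cfsg.Agent.Lib.ElusF.SpModel Cfsg.Agent.Lib.ElusF.SpNeg
  Cfsg.Agent.Lib.HermCount.Field Cfsg.Agent.Lib.ElusF.HzBase Cfsg.Agent.Lib.ElusF.HzAdj
  Cfsg.Agent.Lib.ElusF.HzArith Cfsg.Agent.Lib.ElusF.HzModel Cfsg.Agent.Lib.ElusF.HzMat
  Cfsg.Agent.Lib.ElusL.Arith Cfsg.Agent.Lib.ElusF.HzList Cfsg.Agent.Lib.ElusF.HzI2
  Cfsg.Agent.Lib.ElusF.HzTwo Cfsg.Agent.Lib.ElusF.HzTwoB Cfsg.Agent.Lib.ElusF.HzTI
  Cfsg.Agent.Lib.ElusF.HzCount Cfsg.Agent.Lib.ElusL.Bridge

variable {F : Type u} [Field F] [Fintype F]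

theorem odd_of_two {p q : ℕ} [Fact p.Prime] [CharP F p] (hq : Fintype.card F = q ^ 2) (hp2 : p ≠ 2) :
    (2 : F) ≠ 0 ∧ Odd q := by
  obtain ⟨h1, h3⟩ := r_facts hq Nat.prime_two (fun h => hp2 h.symm)
  refine ⟨by exact_mod_cast h1, ?_⟩
  rw [← Nat.not_even_iff_odd, even_iff_two_dvd]
  intro h
  exact h3 (h.trans (dvd_pow_self q two_ne_zero))

/-- The order `c` divides the exponent from the counting. -/
theorem c_dvd_exp {q r i c l : ℕ} [Fact r.Prime] (hr2 : r ≠ 2) (hq1 : 1 ≤ q)
    (hi : i = orderOf (q : ZMod r))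
    (hc : c = if i % 4 = 0 then i else if i % 4 = 2 then i / 2 else 2 * i)
    (h : (Even l ∧ r ∣ q ^ l - 1) ∨ (Odd l ∧ r ∣ q ^ l + 1)) : c ∣ l := by
  rcases h with ⟨h1, h3⟩ | ⟨h1, h3⟩
  · apply c_dvd_of_even hi hc h1
    rw [hi]
    exact (ord_dvd_iff hq1 _).mpr h3
  · exact c_dvd_of_odd hr2 hi hc h1 h3

theorem main {p : ℕ} [Fact p.Prime] [CharP F p] {q : ℕ} (hq : Fintype.card F = q ^ 2)
    (n m : ℕ) (hn : 3 ≤ n) (hm : 1 ≤ m) (hmn : 2 * m ≤ n)
    (r : ℕ) [Fact r.Prime]
    (hrΩ : r ∣ Nat.card {W : Submodule F (Fin n → F) // Module.finrank F ↥W = m ∧ (∀ u ∈ W, ∀ v ∈ W, Cfsg.hermForm n F q u v = 0)})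
    (i b c : ℕ) (hi : i = orderOf (q : ZMod r)) (hb : b = if Even i then i / 2 else i)
    (hc : c = if i % 4 = 0 then i else if i % 4 = 2 then i / 2 else 2 * i) :
    (∀ x : Matrix.SpecialLinearGroup (Fin n) F, x ∈ Cfsg.SU n F q →
      (∃ z : F, ((x ^ r : Matrix.SpecialLinearGroup (Fin n) F) : Matrix (Fin n) (Fin n) F) = z • (1 : Matrix (Fin n) (Fin n) F)) →
      (∀ z : F, (x : Matrix (Fin n) (Fin n) F) ≠ z • (1 : Matrix (Fin n) (Fin n) F)) →
      ∃ W : Submodule F (Fin n → F), Module.finrank F ↥W = m ∧ (∀ u ∈ W, ∀ v ∈ W, Cfsg.hermForm n F q u v = 0) ∧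
        W.map (Matrix.toLin' (x : Matrix (Fin n) (Fin n) F)) ≤ W) ↔
    ((r = 2 ∧ p ≠ 2 ∧ (2 * m < n ∨ padicValNat 2 (q + 1) ≤ padicValNat 2 n)) ∨
     (r ≠ p ∧ 2 < r ∧ b ≤ m ∧ 2 * (m % b) ≤ n % c ∧
       (i % 4 ≠ 2 ∨ (i % 4 = 2 ∧ (r - 1) / b + 2 * (m / b) ≤ n / b ∧
         (2 < i ∨ (i = 2 ∧ (r ∣ m ∨ padicValNat r n ≤ padicValNat r (q + 1)))))))) := by
  have hr : r.Prime := Fact.out
  have hq1 : 1 ≤ q := by
    rcases Nat.eq_zero_or_pos q with h0 | h0
    · have h1 : 1 < Fintype.card F := Fintype.one_lt_card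
      rw [hq, h0] at h1
      simp at h1
    · exact h0
  have hfin : finrank F (Fin n → F) = n := by simp
  obtain ⟨hrp, l, hl1, hl2, hl3⟩ := ti_dvd hq hmn hr hrΩ
  obtain ⟨hrF, hrQ⟩ := r_facts hq hr hrp
  have hrq : ¬ r ∣ q := fun h => hrQ (h.trans (dvd_pow_self q two_ne_zero))
  have hipos : 0 < i := by
    rw [hi]
    exact ord_pos hr hrq
  obtain ⟨hbpos, hcpos, hc2, hc4⟩ := bc_facts hipos hb hc
  have hord : orderOf ((q ^ 2 : ℕ) : ZMod r) = b := orderOf_q2 hi hb
  have hdeg : ∀ g : F[X], Irreducible g → g ∣ Phi F r → g.natDegree = b := by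
    intro g hg hgd
    rw [← hord]
    exact natDegree_factor hq hr hrF hrQ hg hgd
  constructor
  · intro hL
    by_cases hr2 : r = 2
    · subst hr2
      have hp2 : p ≠ 2 := fun h => hrp h.symm
      refine Or.inl ⟨rfl, hp2, ?_⟩
      by_contra hcon
      push Not at hcon
      obtain ⟨h1, h3⟩ := hcon
      obtain ⟨h2', hqo⟩ := odd_of_two hq hp2
      obtain ⟨V, i1, i2, i3, B, T, z, hB, hT, hTr, hf, hdet, hNS, hno⟩ :=
        neg_ti_model hq h2' hqo (n := n) (by omega) h3
      refine false_of_ti hq hB hT hf hdet hTr hNS ?_ hL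
      intro W hTI hInv hW
      have := hno W hTI hInv
      omega
    · have hr3 : 2 < r := by
        have := hr.two_le
        omega
      have hcl : c ∣ l := c_dvd_exp hr2 hq1 hi hc hl3
      obtain ⟨hcn, hnc⟩ := order_facts hcpos hl1 hl2 hcl
      have hmod : 2 * (m % b) ≤ n % c := by
        by_contra hcon
        push Not at hcon
        by_cases hi4 : i % 4 = 2
        · obtain ⟨hcb, hbo, hib⟩ := hc2 hi4
          subst hcb
          have hb1 : c ≠ 1 := by
            rintro h
            rw [h, Nat.mod_one, Nat.mod_one] at hcon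
            omega
          have hi2 : i ≠ 2 := by omega
          have hrq1 : ¬ r ∣ q + 1 := by
            rw [dvd_succ_iff hr2, ← hi]
            exact hi2
          have hrc : r ∣ q ^ c + 1 := dvd_pow_add_one hr (by rw [← hi, hib]) hcpos
          obtain ⟨V, i1, i2, i3, B, T, hB, hT, hTr, hf, hD, hNS⟩ :=
            exists_alpha_B hq hr hrF hrq hr2 hord hbo hb1 hrc hcn
          refine false_of_ti (z := 1) hq hB hT hf (det_one hq hB hT hr hrq1 hTr) (by rw [hTr, one_smul]) hNS ?_ hL
          intro W hTI hInv hW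
          have h1 := bound_tail hB hT hrF hTr hr hdeg hTI hInv
          rw [hD, hW] at h1
          omega
        · have hcb := hc4 hi4
          subst hcb
          have hi2 : i ≠ 2 := by omega
          have hrq1 : ¬ r ∣ q + 1 := by
            rw [dvd_succ_iff hr2, ← hi]
            exact hi2
          obtain ⟨V, i1, i2, i3, B, T, hB, hT, hTr, hf, hD, hNS⟩ :=
            exists_alpha_A hq hr hrF hrq hrq1 hr2 hord hbpos hcn
          refine false_of_ti (z := 1) hq hB hT hf (det_one hq hB hT hr hrq1 hTr) (by rw [hTr, one_smul]) hNS ?_ hL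
          intro W hTI hInv hW
          have h1 := bound_tail hB hT hrF hTr hr hdeg hTI hInv
          rw [hD, hW] at h1
          omega
      have hbm : b ≤ m := by
        by_contra hlt
        push Not at hlt
        rw [Nat.mod_eq_of_lt hlt] at hmod
        omega
      refine Or.inr ⟨hrp, hr3, hbm, hmod, ?_⟩
      by_cases hi4 : i % 4 = 2
      · right
        obtain ⟨hcb, hbo, hib⟩ := hc2 hi4
        by_cases hi2 : i = 2
        · -- `r` divides `q + 1`
          have hb1 : b = 1 := by omega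
          have hdvd : r ∣ q + 1 := by
            rw [dvd_succ_iff hr2, ← hi]
            exact hi2
          refine ⟨hi4, ?_, Or.inr ⟨hi2, ?_⟩⟩
          · by_contra hcon
            push Not at hcon
            rw [hb1, Nat.div_one, Nat.div_one, Nat.div_one] at hcon
            obtain ⟨V, i1, i2, i3, B, T, hB, hT, hTr, hf, hdet, hNS, hno⟩ :=
              exists_beta_2 hq hr hr2 hrF hdvd hrq hn hm hcon
            exact false_of_ti (z := 1) hq hB hT hf hdet (by rw [hTr, one_smul]) hNS hno hL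
          · by_contra hcon
            push Not at hcon
            obtain ⟨h1, h3⟩ := hcon
            obtain ⟨V, i1, i2, i3, B, T, z, hB, hT, hTr, hf, hdet, hNS, hno⟩ :=
              exists_gamma hq hr hr2 hdvd hrq (n := n) (by omega) h3
            refine false_of_ti hq hB hT hf hdet hTr hNS ?_ hL
            intro W _ hInv hW
            apply h1
            rw [← hW]
            exact hno W hInv
        · have hb1 : b ≠ 1 := by omega
          have hrq1 : ¬ r ∣ q + 1 := by
            rw [dvd_succ_iff hr2, ← hi]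
            exact hi2
          have hrb : r ∣ q ^ b + 1 := dvd_pow_add_one hr (by rw [← hi, hib]) hbpos
          refine ⟨hi4, ?_, Or.inl (by omega)⟩
          by_contra hcon
          push Not at hcon
          obtain ⟨V, i1, i2, i3, B, T, hB, hT, hTr, hf, hNS, hno⟩ :=
            exists_beta_B hq hr hrF hrq hr2 hord hbo hb1 hrb hbm hmn hcon
          exact false_of_ti (z := 1) hq hB hT hf (det_one hq hB hT hr hrq1 hTr) (by rw [hTr, one_smul]) hNS hno hL
      · exact Or.inl hi4
  · intro hR x hx ⟨z, hz⟩ hns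
    have hB := fm_std (F := F) n hq
    have hT := iso_std hx
    have hTr := pow_toLin hz
    have hdet := det_toLin x
    suffices hW : ∃ W : Submodule F (Fin n → F), TI (Cfsg.hermForm n F q) W ∧
        Inv (Matrix.toLin' (x : Matrix (Fin n) (Fin n) F)) W ∧ finrank F W = m by
      obtain ⟨W, h1, h2, h3⟩ := hW
      exact ⟨W, h3, h1, (map_le_iff _ W).mpr h2⟩
    have hpos : 0 < finrank F (Fin n → F) := by
      rw [hfin]
      omega
    have hznorm := scalar_norm hq hB hT hTr hpos
    have hz0 : z ≠ 0 := by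
      rintro rfl
      rw [zero_pow (by omega)] at hznorm
      exact zero_ne_one hznorm
    rcases hR with ⟨rfl, hp2, hcond⟩ | ⟨_, hr3, hle, hmod, hcase⟩
    · obtain ⟨h2', hqo⟩ := odd_of_two hq hp2
      exact back_ti hq hB hT h2' hqo hTr hpos hdet (by rw [hfin]; exact hmn) (by rw [hfin]; exact hcond)
    · have hr2 : r ≠ 2 := by omega
      by_cases hi2 : i = 2
      · have hb1 : b = 1 := by
          have := hc2 (by omega)
          omega
        have hdvd : r ∣ q + 1 := by
          rw [dvd_succ_iff hr2, ← hi]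
          exact hi2
        have hbig : (r - 1) / b + 2 * (m / b) ≤ n / b := by
          rcases hcase with h | ⟨_, h, _⟩
          · omega
          · exact h
        by_cases hroot : ∃ w : F, w ^ r = z
        · obtain ⟨w, hw⟩ := hroot
          have hw1 := norm_of_root hq hr hr2 hdvd hznorm hw
          obtain ⟨hw0, hy, hyr⟩ := exists_scale hq hB hT hr hTr hw hw1
          obtain ⟨W, h1, h2, h3⟩ := pos_B hq hB hy hyr hr hrF hrq (m := m) (by rw [hfin]; exact hmn)
            (by rw [hfin, hord, hb1, Nat.mod_one, Nat.mod_one]) (by rw [hfin, hord]; exact hbig)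
          exact ⟨W, h1, (inv_smul_iff (inv_ne_zero hw0)).mp h2, h3⟩
        · push Not at hroot
          have hirr : Irreducible (X ^ r - C z : F[X]) := X_pow_sub_C_irreducible_of_prime hr hroot
          rcases hcase with h | ⟨_, _, h | ⟨_, h | h⟩⟩
          · omega
          · omega
          · exact pos_irr_ti hq hB hT hr hrF hz0 hirr hTr h (by rw [hfin]; exact hmn)
          · exfalso
            have := val_of_irr hq hr hr2 hdvd hz0 hroot hTr hdet (by rw [hfin]; omega)
            rw [hfin] at this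
            omega
      · have hrq1 : ¬ r ∣ q + 1 := by
          rw [dvd_succ_iff hr2, ← hi]
          exact hi2
        obtain ⟨s, hs, hs1⟩ := exists_root_coprime hr hrq1 hznorm
        obtain ⟨hs0, hy, hyr⟩ := exists_scale hq hB hT hr hTr hs hs1
        by_cases hi4 : i % 4 = 2
        · obtain ⟨hcb, -, -⟩ := hc2 hi4
          have hbig : (r - 1) / b + 2 * (m / b) ≤ n / b := by
            rcases hcase with h | ⟨_, h, _⟩
            · omega
            · exact h
          obtain ⟨W, h1, h2, h3⟩ := pos_B hq hB hy hyr hr hrF hrq (m := m) (by rw [hfin]; exact hmn)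
            (by rw [hfin, hord]; rw [hcb] at hmod; exact hmod) (by rw [hfin, hord]; exact hbig)
          exact ⟨W, h1, (inv_smul_iff (inv_ne_zero hs0)).mp h2, h3⟩
        · have hcb := hc4 hi4
          obtain ⟨W, h1, h2, h3⟩ := pos_A hq hB hy hyr hr hr2 hrF hrq (by rw [← hi]; exact hi4) (m := m)
            (by rw [hfin]; exact hmn) (by rw [hfin, hord, ← hcb]; exact hmod)
          exact ⟨W, h1, (inv_smul_iff (inv_ne_zero hs0)).mp h2, h3⟩

end Cfsg.Agent.Lib.ElusF.HzTIThm
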