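import Cfsg.Agent.Lib.ElusF.HzTwo

/-!
# Involutions in the unitary groups: the two directions
-/

set_option autoImplicit false
set_option linter.unusedSectionVars false
set_option linter.style.haveILetI false
set_option linter.unusedVariables false

open Polynomial Module

universe u

namespace Cfsg.Agent.Lib.ElusF.HzTwoB

open Cfsg.Agent.Lib.ElusL.Basic Cfsg.Agent.Lib.ElusL.Flag Cfsg.Agent.Lib.ElusL.Cyc
  Cfsg.Agent.Lib.ElusL.Pos Cfsg.Agent.Lib.ElusF.Form Cfsg.Agent.Lib.ElusF.Step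
  Cfsg.Agent.Lib.ElusF.Split Cfsg.Agent.Lib.ElusF.SpModel Cfsg.Agent.Lib.ElusF.SpNeg
  Cfsg.Agent.Lib.HermCount.Field Cfsg.Agent.Lib.ElusF.HzBase Cfsg.Agent.Lib.ElusF.HzAdj
  Cfsg.Agent.Lib.ElusF.HzArith Cfsg.Agent.Lib.ElusF.HzModel Cfsg.Agent.Lib.ElusF.HzMat
  Cfsg.Agent.Lib.ElusL.Arith Cfsg.Agent.Lib.ElusF.HzList Cfsg.Agent.Lib.ElusF.HzI2
  Cfsg.Agent.Lib.ElusF.HzTwo

variable {F : Type u} [Field F] [Fintype F] {q : ℕ}

section Back

variable {V : Type*} [AddCommGroup V] [Module F V] [FiniteDimensional F V] {B : V → V → F} {T : End F V}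

theorem det_A (h2 : (2 : F) ≠ 0) {s : F} (hs : s ≠ 0) (hT2 : T ^ 2 = s ^ 2 • 1)
    (hodd : Odd (finrank F (Eg T (-s)))) (hdet : LinearMap.det T = 1) :
    s ^ finrank F V = -1 := by
  rw [det_split h2 hs hT2, neg_pow s, hodd.neg_one_pow] at hdet
  rw [eig_finrank h2 hs hT2, pow_add]
  linear_combination -hdet

theorem det_B (h2 : (2 : F) ≠ 0) {s : F} (hs : s ≠ 0) (hT2 : T ^ 2 = s ^ 2 • 1) {h : ℕ}
    (ha : finrank F (Eg T s) = h) (hc : finrank F (Eg T (-s)) = h) :
    LinearMap.det T = s ^ (2 * h) * (-1) ^ h := by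
  rw [det_split h2 hs hT2, ha, hc, neg_eq_neg_one_mul s, mul_pow, two_mul, pow_add]
  ring

theorem pow_of_det_B (h2 : (2 : F) ≠ 0) {s : F} (hs : s ≠ 0) (hT2 : T ^ 2 = s ^ 2 • 1) {h : ℕ}
    (ha : finrank F (Eg T s) = h) (hc : finrank F (Eg T (-s)) = h) (hdet : LinearMap.det T = 1) :
    s ^ (2 * h) = (-1) ^ h := by
  have h1 := det_B h2 hs hT2 ha hc
  rw [hdet] at h1
  have h3 : ((-1 : F) ^ h) * (-1) ^ h = 1 := by
    rw [← mul_pow]
    simp
  calc s ^ (2 * h) = s ^ (2 * h) * ((-1 : F) ^ h * (-1) ^ h) := by rw [h3, mul_one]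
    _ = (s ^ (2 * h) * (-1) ^ h) * (-1) ^ h := by ring
    _ = (-1) ^ h := by rw [← h1, one_mul]

theorem back_ti (hF : Fintype.card F = q ^ 2) (hB : Fm (frobHom hF) 1 B) (hT : Iso B T)
    (h2 : (2 : F) ≠ 0) (hqo : Odd q) {z : F} (hTr : T ^ 2 = z • 1) (hpos : 0 < finrank F V)
    (hdet : LinearMap.det T = 1) {m : ℕ} (hm : 2 * m ≤ finrank F V)
    (hv : 2 * m < finrank F V ∨ padicValNat 2 (q + 1) ≤ padicValNat 2 (finrank F V)) :
    ∃ W : Submodule F V, TI B W ∧ Inv T W ∧ finrank F W = m := by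
  have hz := scalar_norm hF hB hT hTr hpos
  obtain ⟨s, hs, rfl, hs1 | hs1⟩ := exists_sqrt hF h2 hqo hz
  · refine posA_ti hF hB hT h2 hqo hs hTr hs1 hm ?_
    rintro ⟨hm2, hodd⟩
    have hv' : padicValNat 2 (q + 1) ≤ padicValNat 2 (finrank F V) := by
      rcases hv with hv | hv
      · omega
      · exact hv
    have hn := eig_finrank h2 hs hTr
    have hodd' : Odd (finrank F (Eg T (-s))) := by
      rw [Nat.odd_iff] at hodd ⊢
      omega
    exact arith_A h2 (by omega) hv' (det_A h2 hs hTr hodd' hdet) hs1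
  · exact posB_ti hF hB hT h2 hqo hs hTr hs1 hm

theorem back_nd (hF : Fintype.card F = q ^ 2) (hB : Fm (frobHom hF) 1 B) (hT : Iso B T)
    (h2 : (2 : F) ≠ 0) (hqo : Odd q) {z : F} (hTr : T ^ 2 = z • 1) (hpos : 0 < finrank F V)
    (hdet : LinearMap.det T = 1) {m : ℕ} (hm : m ≤ finrank F V)
    (hc : Odd (finrank F V) ∨ Even m ∨
      (padicValNat 2 (finrank F V) ≤ padicValNat 2 (q + 1) ∧ q % 4 = 3)) :
    ∃ W : Submodule F V, Nd B W ∧ Inv T W ∧ finrank F W = m := by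
  have hz := scalar_norm hF hB hT hTr hpos
  obtain ⟨s, hs, rfl, hs1 | hs1⟩ := exists_sqrt hF h2 hqo hz
  · exact posA_nd hF hB hT h2 hqo hs hTr hs1 hm
  · obtain ⟨h1, h3⟩ := B_dims hF hB hT h2 hqo hs hTr hs1
    rcases hc with hc | hc | ⟨hc, hq4⟩
    · exfalso
      rw [Nat.odd_iff] at hc
      omega
    · exact posB_nd hF hB hT h2 hqo hs hTr hs1 hm hc
    · exfalso
      rw [h1] at hc
      have h4 := pow_of_det_B h2 hs hTr rfl h3 hdet
      exact arith_B h2 (by omega) hq4 hc h4 hs1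

end Back

theorem model_planes (hF : Fintype.card F = q ^ 2) (hqo : Odd q) {s : F} (hs : s ^ (q + 1) = -1) (h : ℕ) :
    ∃ (V : Type u) (_ : AddCommGroup V) (_ : Module F V) (_ : FiniteDimensional F V)
      (B : V → V → F) (T : End F V), Fm (frobHom hF) 1 B ∧ Iso B T ∧ finrank F V = 2 * (h + 1) ∧
      T ^ 2 = s ^ 2 • 1 := by
  obtain ⟨τ, hτ⟩ := exists_tau (K := F) hF 1
  have hτi : Function.Injective τ := τ.injective
  have hτs : Function.Surjective τ := Finite.injective_iff_surjective.mp hτi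
  have hτa : ∀ a : F, τ (algebraMap F F a) = algebraMap F F (frobHom hF a) := by
    intro a
    rw [hτ, pow_one]
    rfl
  have hx : s * τ (-s) = 1 := by
    rw [hτ, pow_one, hqo.neg_pow, mul_neg, ← pow_succ', hs, neg_neg]
  have hT0 : ((LinearMap.prodMap (Algebra.lmul F F s) (Algebra.lmul F F (-s)) : End F (F × F))) ^ 2 =
      s ^ 2 • 1 := by
    apply LinearMap.ext
    rintro ⟨x, y⟩
    apply Prod.ext
    · change s * (s * x) = s ^ 2 * x
      ring
    · change (-s) * ((-s) * y) = s ^ 2 * y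
      ring
  induction h with
  | zero =>
    exact ⟨F × F, inferInstance, inferInstance, inferInstance, _, _, double_form hF hτs hτa,
      double_iso _ hx, by rw [Module.finrank_prod, Module.finrank_self], hT0⟩
  | succ h ih =>
    obtain ⟨V, i1, i2, i3, B, T, h1, h3, hf, hp⟩ := ih
    refine ⟨V × (F × F), inferInstance, inferInstance, inferInstance, _, LinearMap.prodMap T _,
      Fm_prod h1 (double_form hF hτs hτa), Iso_prod h3 (double_iso _ hx), ?_, ?_⟩
    · rw [Module.finrank_prod, hf, Module.finrank_prod, Module.finrank_self]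
      ring
    · rw [prodMap_pow, hp, hT0]
      rfl

theorem sq_sub_dvd {t : ℕ} (hqo : Odd q) (ht : 2 ^ t ∣ q + 1) : 2 ^ (t + 1) ∣ q ^ 2 - 1 := by
  obtain ⟨k, rfl⟩ := hqo
  have h1 : (2 * k + 1) ^ 2 - 1 = (2 * k + 1 + 1) * (2 * k) := by
    have : (2 * k + 1) ^ 2 = (2 * k + 1 + 1) * (2 * k) + 1 := by ring
    omega
  rw [h1, pow_succ]
  exact mul_dvd_mul ht (Dvd.intro k rfl)

theorem neg_nd_model (hF : Fintype.card F = q ^ 2) (h2 : (2 : F) ≠ 0) (hqo : Odd q) {n : ℕ} (hn : 2 ≤ n)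
    (he : Even n) (hc : ¬ (padicValNat 2 n ≤ padicValNat 2 (q + 1) ∧ q % 4 = 3)) :
    ∃ (V : Type u) (_ : AddCommGroup V) (_ : Module F V) (_ : FiniteDimensional F V)
      (B : V → V → F) (T : End F V) (z : F), Fm (frobHom hF) 1 B ∧ Iso B T ∧ T ^ 2 = z • 1 ∧
      finrank F V = n ∧ LinearMap.det T = 1 ∧ (∀ z : F, T ≠ z • 1) ∧
      ∀ W : Submodule F V, Nd B W → Inv T W → Even (finrank F W) := by
  obtain ⟨u, hu, hqu⟩ := two_val (n := q + 1) (by omega)
  set v := padicValNat 2 (q + 1) with hv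
  have hv1 : 1 ≤ v := by
    by_contra h0
    have h3 : v = 0 := by omega
    rw [h3, pow_zero, one_mul] at hqu
    rw [← hqu] at hu
    obtain ⟨k, hk⟩ := hu
    obtain ⟨k', hk'⟩ := hqo
    omega
  obtain ⟨s, hsv⟩ := exists_two_root hF h2 (sq_sub_dvd hqo (t := v) ⟨u, hqu⟩)
  have hs0 : s ≠ 0 := by
    rintro rfl
    rw [zero_pow (by positivity)] at hsv
    have : (1 : F) = 0 := by linear_combination hsv
    exact absurd this one_ne_zero
  have hs1 : s ^ (q + 1) = -1 := by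
    rw [hqu, pow_mul, hsv, hu.neg_one_pow]
  obtain ⟨h, rfl⟩ : ∃ h, n = 2 * h := ⟨n / 2, by rw [Nat.even_iff] at he; omega⟩
  have hsn : s ^ (2 * h) = (-1) ^ h := by
    by_cases hq4 : q % 4 = 3
    · have hlt : v < padicValNat 2 (2 * h) := by
        by_contra hle
        exact hc ⟨by omega, hq4⟩
      have hd : 2 ^ (v + 1) ∣ 2 * h := (padicValNat_dvd_iff_le (by omega)).mpr hlt
      obtain ⟨k, hk⟩ := hd
      have h3 : s ^ (2 * h) = 1 := by
        rw [hk, pow_mul, pow_succ, pow_mul, hsv]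
        simp
      have h4 : h = 2 ^ v * k := by
        have : 2 * h = 2 * (2 ^ v * k) := by
          rw [hk, pow_succ]
          ring
        omega
      obtain ⟨v', hv'⟩ : ∃ v', v = v' + 1 := ⟨v - 1, by omega⟩
      rw [h3]
      have h5 : Even h := by
        rw [h4, hv', pow_succ]
        exact ⟨2 ^ v' * k, by ring⟩
      rw [h5.neg_one_pow]
    · have hv2 : v = 1 := by
        by_contra hne
        have h3 : 2 ≤ v := by omega
        obtain ⟨w, hw⟩ := Nat.exists_eq_add_of_le h3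
        have h4 : 4 ∣ q + 1 := by
          rw [hqu, hw, pow_add]
          exact Dvd.dvd.mul_right (Dvd.dvd.mul_right (by norm_num) _) _
        omega
      rw [hv2, pow_one] at hsv
      rw [pow_mul, hsv]
  obtain ⟨h', rfl⟩ : ∃ h', h = h' + 1 := ⟨h - 1, by omega⟩
  obtain ⟨V, i1, i2, i3, B, T, hB, hT, hf, hT2⟩ := model_planes hF hqo hs1 h'
  have hpos : 0 < finrank F V := by omega
  obtain ⟨h3, h4⟩ := B_dims hF hB hT h2 hqo hs0 hT2 hs1
  have ha : finrank F (Eg T s) = h' + 1 := by omega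
  refine ⟨V, i1, i2, i3, B, T, s ^ 2, hB, hT, hT2, hf, ?_, nonscalar_B hF hB hT h2 hqo hT2 hs1 hpos, ?_⟩
  · rw [det_B h2 hs0 hT2 ha (h4.trans ha), hsn, ← mul_pow]
    simp
  · intro W hW hWi
    exact even_of_B hF hB hT h2 hqo hs0 hT2 hs1 hW hWi

open scoped _root_.Classical in
theorem neg_ti_model (hF : Fintype.card F = q ^ 2) (h2 : (2 : F) ≠ 0) (hqo : Odd q) {n : ℕ} (hn : 2 ≤ n)
    (hv : padicValNat 2 n < padicValNat 2 (q + 1)) :
    ∃ (V : Type u) (_ : AddCommGroup V) (_ : Module F V) (_ : FiniteDimensional F V)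
      (B : V → V → F) (T : End F V) (z : F), Fm (frobHom hF) 1 B ∧ Iso B T ∧ T ^ 2 = z • 1 ∧
      finrank F V = n ∧ LinearMap.det T = 1 ∧ (∀ z : F, T ≠ z • 1) ∧
      ∀ W : Submodule F V, TI B W → Inv T W → 2 * finrank F W < n := by
  obtain ⟨n', hn', hnn⟩ := two_val (n := n) (by omega)
  set e := padicValNat 2 n with he
  have hd : 2 ^ (e + 1) ∣ q + 1 := (padicValNat_dvd_iff_le (by omega)).mpr hv
  have hd' : 2 ^ e ∣ q + 1 := (pow_dvd_pow 2 (by omega)).trans hd
  obtain ⟨s, hse⟩ := exists_two_root hF h2 (sq_sub_dvd hqo hd')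
  have hs0 : s ≠ 0 := by
    rintro rfl
    rw [zero_pow (by positivity)] at hse
    have : (1 : F) = 0 := by linear_combination hse
    exact absurd this one_ne_zero
  have hs1 : s ^ (q + 1) = 1 := by
    obtain ⟨w, hw⟩ := hd
    rw [hw, pow_mul, pow_succ, pow_mul, hse]
    simp
  have hsn : s ^ n = -1 := by
    rw [hnn, pow_mul, hse, hn'.neg_one_pow]
  have hl : ∀ θ ∈ [(-1 : F)], θ ^ (q + 1) = 1 := by
    intro θ hθ
    rw [List.mem_singleton.mp hθ, hqo.add_one.neg_pow, one_pow]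
  obtain ⟨V, i1, i2, i3, B, T₀, hB, hT₀, hf, hdet, hp, hD⟩ := model_list hF (n - 1) [(-1 : F)] hl
  have hf' : finrank F V = n := by
    rw [hf]
    simp only [List.length_singleton]
    omega
  have hT₀2 : T₀ ^ 2 = 1 := hp 2 (by
    intro θ hθ
    rw [List.mem_singleton.mp hθ]
    simp)
  have hp2 : Nat.Prime 2 := Nat.prime_two
  have hne : (-1 : F) ≠ 1 := by
    intro h
    apply h2
    linear_combination -h
  have hnd : [(-1 : F)].Nodup := List.nodup_singleton _
  refine ⟨V, i1, i2, i3, B, s • T₀, s ^ 2, hB, iso_smul hF hB hT₀ hs1, ?_, hf', ?_, ?_, ?_⟩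
  · rw [_root_.smul_pow, hT₀2]
  · rw [LinearMap.det_smul, hf', hsn, hdet]
    simp
  · intro z hz
    have hz' : T₀ = (s⁻¹ * z) • 1 := by
      rw [mul_smul, ← hz, inv_smul_smul₀ hs0]
    have h3 : 0 < Dk T₀ (X - C (1 : F)) := by
      rw [hD]
      have : (X - C (1 : F)).eval 1 = 0 := by simp
      rw [if_pos this]
      omega
    have h4 : 0 < Dk T₀ (X - C (-1 : F)) := by
      rw [hD]
      have : 0 < [(-1 : F)].countP (fun θ => (X - C (-1 : F) : F[X]).eval θ = 0) :=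
        List.countP_pos_iff.mpr ⟨-1, by simp, by simp⟩
      omega
    have h5 := eval_of_Dk h3 hz'
    have h6 := eval_of_Dk h4 hz'
    simp only [eval_sub, eval_X, eval_C] at h5 h6
    apply hne
    linear_combination h5 - h6
  · intro W hTI hWi
    have hWi' : Inv T₀ W := by
      intro v hv
      have := W.smul_mem s⁻¹ (hWi v hv)
      simpa [LinearMap.smul_apply, smul_smul, inv_mul_cancel₀ hs0] using this
    have h3 := bound_list hF hp2 (by exact_mod_cast h2) hqo.add_one.two_dvd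
      (fun h => by
        obtain ⟨k, hk⟩ := hqo
        omega) hB hT₀ hT₀2 hnd hD hTI hWi'
    have h4 : [(-1 : F)].count 1 = 0 := by
      rw [List.count_eq_zero]
      intro hmem
      exact hne (List.mem_singleton.mp hmem).symm
    omega

end Cfsg.Agent.Lib.ElusF.HzTwoB
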