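import Cfsg.Agent.Lib.ElusF.SpUniModel

/-!
# Involutions in symplectic groups in characteristic two: nondegenerate invariant subspaces
-/

set_option autoImplicit false
set_option linter.unusedSectionVars false
set_option linter.style.haveILetI false
set_option linter.unusedVariables false

open Polynomial Module

universe u

namespace Cfsg.Agent.Lib.ElusF.SpChar2

open Cfsg.Agent.Lib.ElusL.Basic Cfsg.Agent.Lib.ElusL.Dec3 Cfsg.Agent.Lib.ElusF.Form
  Cfsg.Agent.Lib.ElusF.Step Cfsg.Agent.Lib.ElusF.Uni Cfsg.Agent.Lib.ElusF.Decomp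
  Cfsg.Agent.Lib.ElusF.SpModel Cfsg.Agent.Lib.ElusF.SpPos Cfsg.Agent.Lib.ElusF.SpNd

variable {F : Type*} [Field F] [Fintype F] {V : Type*} [AddCommGroup V] [Module F V] [FiniteDimensional F V]
  {B : V → V → F}

section facts

variable (hB : Fm (RingHom.id F) (-1) B) {y N : End F V} (hy : Iso B y) (hN : y = 1 + N)
  (hNN : ∀ v, N (N v) = 0) (hchar : (2 : F) = 0)
include hB hy hN hNN hchar

theorem neg_one_eq : (-1 : F) = 1 := by
  have : (-1 : F) = 1 - 2 := by ring
  rw [this, hchar, sub_zero]

theorem symm_B (u v : V) : B v u = B u v := by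
  rw [hB.herm u v]
  simp [neg_one_eq hB hy hN hNN hchar]

theorem yy (v : V) : y (y v) = v := by
  have h1 : ∀ x, y x = x + N x := fun x => by rw [hN]; rfl
  rw [h1, h1, map_add, hNN, add_zero]
  have h2 : (2 : F) • N v = 0 := by rw [hchar, zero_smul]
  have h3 : v + N v + N v = v + (2 : F) • N v := by
    rw [two_smul]
    abel
  rw [h3, h2, add_zero]

theorem adj_N (u v : V) : B (N u) v = B u (N v) := by
  have h1 := adj_step hB hy hN u (y v)
  rw [yy hB hy hN hNN hchar] at h1
  have h2 : y v = v + N v := by rw [hN]; rfl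
  rw [h1, h2, map_add, hNN, add_zero]
  have h3 := neg_one_eq hB hy hN hNN hchar
  rw [show -B u (N v) = (-1) * B u (N v) by ring, h3, one_mul]

theorem NN_pair (u v : V) : B (N u) (N v) = 0 := by
  rw [adj_N hB hy hN hNN hchar, hNN, hB.zero_r]

end facts

/-- A nondegenerate piece of dimension two or four. -/
theorem step24 (hB : Fm (RingHom.id F) (-1) B) (hA : ∀ u, B u u = 0) {y N : End F V} (hy : Iso B y)
    (hN : y = 1 + N) (hNN : ∀ v, N (N v) = 0) (hchar : (2 : F) = 0) {U : Submodule F V}
    (hU : Nd B U) (hUi : Inv N U) (hpos : 0 < finrank F U) :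
    ∃ C : Submodule F V, C ≤ U ∧ Nd B C ∧ Inv N C ∧ (finrank F C = 2 ∨ finrank F C = 4) := by
  classical
  have hsym := symm_B hB hy hN hNN hchar
  have hadj := adj_N hB hy hN hNN hchar
  have hNNp := NN_pair hB hy hN hNN hchar
  by_cases h0 : ∀ u ∈ U, N u = 0
  · obtain ⟨C, h1, h2, h3⟩ := exists_plane hB hA hU hpos
    refine ⟨C, h1, h2, ?_, Or.inl h3⟩
    intro v hv
    rw [h0 v (h1 hv)]
    exact C.zero_mem
  by_cases h1 : ∃ u ∈ U, B u (N u) ≠ 0
  · obtain ⟨u, huU, hu⟩ := h1
    obtain ⟨h2, h3⟩ := plane_of_pair hB hA hu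
    refine ⟨Submodule.span F {u, N u}, ?_, h2, ?_, Or.inl h3⟩
    · rw [Submodule.span_le]
      rintro x (rfl | rfl)
      · exact huU
      · exact hUi _ huU
    · intro w hw
      obtain ⟨a, b, rfl⟩ := Submodule.mem_span_pair.mp hw
      rw [map_add, map_smul, map_smul, hNN, smul_zero, add_zero]
      exact Submodule.smul_mem _ _ (Submodule.subset_span (by simp))
  · push Not at h0 h1
    obtain ⟨v, hvU, hv⟩ := h0
    obtain ⟨u, huU, huv⟩ : ∃ u ∈ U, B u (N v) ≠ 0 := by
      by_contra hcon
      push Not at hcon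
      apply hv
      apply hU _ (hUi v hvU)
      intro x hx
      rw [hsym, hcon x hx]
    let w : Fin 4 → V := ![u, v, N u, N v]
    have hx : ∀ c : Fin 4 → F, ∀ x, x = ∑ i, c i • w i →
        (∀ z ∈ Submodule.span F (Set.range w), B x z = 0) → c = 0 := by
      intro c x hxc hz
      have hsum : x = c 0 • u + c 1 • v + c 2 • N u + c 3 • N v := by
        rw [hxc, Fin.sum_univ_four]
        rfl
      have e1 : B x (N v) = c 0 * B u (N v) := by
        rw [hsum]
        simp only [hB.add_l, hB.smul_l, h1 v hvU, hNNp, hA]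
        ring
      have e2 : B x (N u) = c 1 * B u (N v) := by
        rw [hsum]
        have : B v (N u) = B u (N v) := by
          rw [← hadj v u]
          exact hsym u (N v)
        simp only [hB.add_l, hB.smul_l, h1 u huU, hNNp, hA, this]
        ring
      have e3 : B x v = c 0 * B u v + c 2 * B u (N v) := by
        rw [hsum]
        have h3 : B (N v) v = 0 := by rw [hadj, h1 v hvU]
        simp only [hB.add_l, hB.smul_l, hA, h3, hadj u v]
        ring
      have e4 : B x u = c 1 * B v u + c 3 * B u (N v) := by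
        rw [hsum]
        have h3 : B (N u) u = 0 := by rw [hadj, h1 u huU]
        have h4 : B (N v) u = B u (N v) := by rw [hsym]
        simp only [hB.add_l, hB.smul_l, hA, h3, h4]
        ring
      have z1 := hz (N v) (Submodule.subset_span ⟨3, rfl⟩)
      have z2 := hz (N u) (Submodule.subset_span ⟨2, rfl⟩)
      have z3 := hz v (Submodule.subset_span ⟨1, rfl⟩)
      have z4 := hz u (Submodule.subset_span ⟨0, rfl⟩)
      rw [e1] at z1
      rw [e2] at z2
      have c0 : c 0 = 0 := (mul_eq_zero.mp z1).resolve_right huv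
      have c1 : c 1 = 0 := (mul_eq_zero.mp z2).resolve_right huv
      rw [e3, c0, zero_mul, zero_add] at z3
      rw [e4, c1, zero_mul, zero_add] at z4
      have c2 : c 2 = 0 := (mul_eq_zero.mp z3).resolve_right huv
      have c3 : c 3 = 0 := (mul_eq_zero.mp z4).resolve_right huv
      funext i
      fin_cases i
      · exact c0
      · exact c1
      · exact c2
      · exact c3
    have hLI : LinearIndependent F w := by
      rw [Fintype.linearIndependent_iff]
      intro c hc i
      have := hx c 0 hc.symm (fun z _ => hB.zero_l z)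
      rw [this]
      rfl
    refine ⟨Submodule.span F (Set.range w), ?_, ?_, ?_, Or.inr ?_⟩
    · rw [Submodule.span_le]
      rintro _ ⟨i, rfl⟩
      fin_cases i
      · exact huU
      · exact hvU
      · exact hUi _ huU
      · exact hUi _ hvU
    · intro x hx' hz
      obtain ⟨c, rfl⟩ := (Submodule.mem_span_range_iff_exists_fun F).mp hx'
      have := hx c _ rfl hz
      simp [this]
    · intro x hx'
      have hle : Submodule.span F (Set.range w) ≤ (Submodule.span F (Set.range w)).comap N := by
        rw [Submodule.span_le]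
        rintro _ ⟨i, rfl⟩
        change N (w i) ∈ Submodule.span F (Set.range w)
        fin_cases i
        · exact Submodule.subset_span ⟨2, rfl⟩
        · exact Submodule.subset_span ⟨3, rfl⟩
        · change N (N u) ∈ _
          rw [hNN]
          exact Submodule.zero_mem _
        · change N (N v) ∈ _
          rw [hNN]
          exact Submodule.zero_mem _
      exact hle hx'
    · rw [finrank_span_eq_card hLI]
      simp

/-- Nondegenerate invariant subspaces of even dimension, characteristic two. -/
theorem cap24 (hB : Fm (RingHom.id F) (-1) B) (hA : ∀ u, B u u = 0) {y N : End F V} (hy : Iso B y)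
    (hN : y = 1 + N) (hNN : ∀ v, N (N v) = 0) (hchar : (2 : F) = 0) :
    ∀ (n : ℕ) (U : Submodule F V), finrank F U = n → Nd B U → Inv N U → ∀ t : ℕ, Even t → t ≤ n →
      (t % 4 = 0 ∨ n % 4 = 2) → ∃ W : Submodule F V, W ≤ U ∧ Nd B W ∧ Inv N W ∧ finrank F W = t := by
  have hinj : Function.Injective y := fun a b hab => by
    have := congrArg y hab
    rwa [yy hB hy hN hNN hchar, yy hB hy hN hNN hchar] at this
  intro n
  induction n using Nat.strong_induction_on with
  | _ n ih =>
    intro U hUn hU hUi t ht htn hcond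
    rcases Nat.eq_zero_or_pos t with rfl | htpos
    · exact ⟨⊥, bot_le, fun u hu _ => (Submodule.mem_bot F).mp hu, fun v hv => by
        rw [(Submodule.mem_bot F).mp hv, map_zero]
        exact Submodule.zero_mem _, by simp⟩
    · have hnpos : 0 < finrank F U := by omega
      have hneven : Even n := even_of_nd hB hA n U hUn hU
      obtain ⟨C, hCU, hC, hCi, hCd⟩ := step24 hB hA hy hN hNN hchar hU hUi hnpos
      have hCy : Inv y C := inv_y hN hCi
      have hUy : Inv y U := inv_y hN hUi
      set U' := U ⊓ hB.orth C with hU'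
      have hU'nd : Nd B U' := hB.nd_inf_orth hU hC hCU
      have hU'y : Inv y U' := hB.inv_inf hUy (hB.inv_orth hy hinj hCy)
      have hU'i : Inv N U' := inv_N hN hU'y
      have hdim : finrank F U' + finrank F C = finrank F U := hB.finrank_inf_orth hU hCU
      rw [hUn] at hdim
      have hU'orth : U' ≤ hB.orth C := inf_le_right
      have hcomb : ∀ W' : Submodule F V, W' ≤ U' → Nd B W' → Inv N W' →
          ∃ W : Submodule F V, W ≤ U ∧ Nd B W ∧ Inv N W ∧
            finrank F W = finrank F C + finrank F W' := by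
        intro W' h1 h2 h3
        exact ⟨C ⊔ W', sup_le hCU (h1.trans inf_le_left), nd_sup hB hC h2 (h1.trans hU'orth),
          inv_sup hCi h3, finrank_sup_of_disjoint (disjoint_of_orth hB hC (h1.trans hU'orth))⟩
      have hev : t % 2 = 0 := Nat.even_iff.mp ht
      have hnev : n % 2 = 0 := Nat.even_iff.mp hneven
      rcases hCd with hc | hc
      · rw [hc] at hdim hcomb
        rcases hcond with hcond | hcond
        · by_cases htle : t ≤ finrank F U'
          · obtain ⟨W, h1, h2, h3, h4⟩ := ih _ (by omega) U' rfl hU'nd hU'i t ht htle (Or.inl hcond)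
            exact ⟨W, h1.trans inf_le_left, h2, h3, h4⟩
          · have : t = n := by omega
            exact ⟨U, le_rfl, hU, hUi, by omega⟩
        · by_cases ht4 : t % 4 = 0
          · by_cases htle : t ≤ finrank F U'
            · obtain ⟨W, h1, h2, h3, h4⟩ := ih _ (by omega) U' rfl hU'nd hU'i t ht htle (Or.inl ht4)
              exact ⟨W, h1.trans inf_le_left, h2, h3, h4⟩
            · have : t = n := by omega
              exact ⟨U, le_rfl, hU, hUi, by omega⟩
          · obtain ⟨W', h1, h2, h3, h4⟩ := ih _ (by omega) U' rfl hU'nd hU'i (t - 2)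
              (by rw [Nat.even_iff]; omega) (by omega) (Or.inl (by omega))
            obtain ⟨W, h5, h6, h7, h8⟩ := hcomb W' h1 h2 h3
            exact ⟨W, h5, h6, h7, by omega⟩
      · rw [hc] at hdim hcomb
        by_cases ht4 : 4 ≤ t
        · obtain ⟨W', h1, h2, h3, h4⟩ := ih _ (by omega) U' rfl hU'nd hU'i (t - 4)
            (by rw [Nat.even_iff]; omega) (by omega) (by omega)
          obtain ⟨W, h5, h6, h7, h8⟩ := hcomb W' h1 h2 h3
          exact ⟨W, h5, h6, h7, by omega⟩
        · have ht2 : t = 2 := by omega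
          rw [ht2] at hcond
          have hn2 : n % 4 = 2 := by omega
          obtain ⟨W, h1, h2, h3, h4⟩ := ih _ (by omega) U' rfl hU'nd hU'i 2 (by norm_num) (by omega)
            (Or.inr (by omega))
          exact ⟨W, h1.trans inf_le_left, h2, h3, by omega⟩

/-- The obstruction: an involution with alternating associated form and minimal kernel. -/
theorem four_dvd (hB : Fm (RingHom.id F) (-1) B) (hA : ∀ u, B u u = 0) {y N : End F V} (hy : Iso B y)
    (hN : y = 1 + N) (hNN : ∀ v, N (N v) = 0) (hchar : (2 : F) = 0)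
    (hAlt : ∀ u, B u (N u) = 0) (hker : ∀ v, N v = 0 → ∃ x, N x = v) {W : Submodule F V}
    (hW : Nd B W) (hWi : Inv N W) : 4 ∣ finrank F W := by
  have hinj : Function.Injective y := fun a b hab => by
    have := congrArg y hab
    rwa [yy hB hy hN hNN hchar, yy hB hy hN hNN hchar] at this
  have hsym := symm_B hB hy hN hNN hchar
  have hadj := adj_N hB hy hN hNN hchar
  have hm1 := neg_one_eq hB hy hN hNN hchar
  set W₀ := W ⊓ LinearMap.ker N with hW₀
  set W₁ := W.map N with hW₁
  have hO : Inv N (hB.orth W) := inv_N hN (hB.inv_orth hy hinj (inv_y hN hWi))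
  have h10 : W₁ = W₀ := by
    apply le_antisymm
    · rintro _ ⟨x, hx, rfl⟩
      exact ⟨hWi x hx, LinearMap.mem_ker.mpr (hNN x)⟩
    · rintro w ⟨hwW, hwk⟩
      obtain ⟨y₀, hy₀⟩ := hker w (LinearMap.mem_ker.mp hwk)
      have htop : y₀ ∈ W ⊔ hB.orth W := by
        rw [(hB.isCompl_orth hW).sup_eq_top]
        trivial
      obtain ⟨y₁, h1, y₂, h2, rfl⟩ := Submodule.mem_sup.mp htop
      have h3 : N y₂ = w - N y₁ := by
        rw [← hy₀, map_add]
        abel
      have h4 : N y₂ ∈ W := by
        rw [h3]
        exact W.sub_mem hwW (hWi y₁ h1)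
      have h5 : N y₂ = 0 := Submodule.disjoint_def.mp (hB.isCompl_orth hW).disjoint _ h4 (hO y₂ h2)
      refine ⟨y₁, h1, ?_⟩
      rw [← hy₀, map_add, h5, add_zero]
  have hrank : finrank F W₁ + finrank F W₀ = finrank F W := by
    have h1 := LinearMap.finrank_range_add_finrank_ker (N.domRestrict W)
    have h2 : LinearMap.range (N.domRestrict W) = W₁ := LinearMap.range_domRestrict W N
    have h3 : LinearMap.ker (N.domRestrict W) = W₀.comap W.subtype := by
      ext x
      simp [hW₀, LinearMap.mem_ker, x.2]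
    rw [h2, h3] at h1
    have h4 : finrank F (W₀.comap W.subtype) = finrank F W₀ :=
      LinearEquiv.finrank_eq (Submodule.comapSubtypeEquivOfLe inf_le_left)
    rw [h4] at h1
    exact h1
  obtain ⟨Z, hZ⟩ := Submodule.exists_isCompl W₀
  set W' := W ⊓ Z with hW'
  have hsup : W₀ ⊔ W' = W := by
    rw [hW', inf_comm W Z, ← sup_inf_assoc_of_le _ (inf_le_left : W₀ ≤ W), hZ.sup_eq_top, top_inf_eq]
  have hinf : W₀ ⊓ W' = ⊥ := by
    rw [eq_bot_iff]
    rintro v ⟨h1, ⟨-, h2⟩⟩
    exact hZ.disjoint.le_bot ⟨h1, h2⟩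
  have hdim' := Submodule.finrank_sup_add_finrank_inf_eq W₀ W'
  rw [hsup, hinf, finrank_bot, add_zero] at hdim'
  have hfm : Fm (RingHom.id F) (-1) (fun u v : W' => B u.1 (N v.1)) :=
    { add_l := fun u v z => hB.add_l _ _ _
      smul_l := fun c u v => hB.smul_l _ _ _
      herm := fun u v => by
        simp only [RingHom.id_apply, hm1, one_mul]
        rw [← hadj, hsym]
      nd := fun u hu => by
        have h1 : N u.1 = 0 := by
          apply hW _ (hWi _ u.2.1)
          intro x hx
          rw [hadj]
          have hx' : x ∈ W₀ ⊔ W' := by rw [hsup]; exact hx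
          obtain ⟨a, ha, b, hb, rfl⟩ := Submodule.mem_sup.mp hx'
          rw [map_add, LinearMap.mem_ker.mp ha.2, zero_add]
          exact hu ⟨b, hb⟩
        have h2 : u.1 ∈ W₀ ⊓ W' := ⟨⟨u.2.1, LinearMap.mem_ker.mpr h1⟩, u.2⟩
        rw [hinf] at h2
        exact Subtype.ext ((Submodule.mem_bot F).mp h2)
      σσ := fun _ => rfl
      ε0 := by simp }
  have hev : Even (finrank F W') := by
    have := even_of_nd hfm (fun u => hAlt u.1) (finrank F (⊤ : Submodule F W')) ⊤ rfl hfm.nd_top
    rwa [finrank_top] at this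
  have h11 : finrank F W₀ = finrank F W₁ := by rw [h10]
  obtain ⟨c, hc⟩ := hev
  exact ⟨c, by omega⟩

end Cfsg.Agent.Lib.ElusF.SpChar2
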